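import Cfsg.Agent.Blocks.Residue
set_option autoImplicit false

/-!
A criterion for a single 2-block: no class function on the elements of odd order satisfies the
equations of an idempotent, other than the multiples of the identity.
-/

namespace CfsgLib.MathieuBlock

open Cfsg CfsgLib.Blocks CfsgLib.CharBasics

variable {G : Type*} [Group G] [Fintype G]

/-- In characteristic two, a convolution square is carried by the elements of square one. -/
theorem sum_pair_eq [DecidableEq G] {k : Type*} [CommRing k] [CharP k 2] (a : G → k)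
    (hcl : ∀ x g, a (x * g * x⁻¹) = a g) (h : G) :
    ∑ x, a x * a (x⁻¹ * (h * h)) =
      ∑ u ∈ Finset.univ.filter (fun u : G => u * u = 1), a (u * h) * a (u * h) := by
  rw [← Equiv.sum_comp (Equiv.mulRight h) (fun x => a x * a (x⁻¹ * (h * h)))]
  have e : ∀ u : G, a ((u * h)⁻¹ * (h * h)) = a (u⁻¹ * h) := by
    intro u
    rw [← hcl h]
    congr 1
    group
  simp only [Equiv.coe_mulRight, e]
  rw [← Finset.sum_filter_add_sum_filter_not Finset.univ (fun u : G => u * u = 1)]
  have h0 : ∑ u ∈ Finset.univ.filter (fun u : G => ¬ u * u = 1), a (u * h) * a (u⁻¹ * h) = 0 := by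
    refine Finset.sum_involution (fun u _ => u⁻¹) (fun u _ => ?_) (fun u hu _ => ?_) (fun u hu => ?_)
      (fun u _ => inv_inv u)
    · rw [inv_inv, mul_comm (a (u⁻¹ * h)), CharTwo.add_self_eq_zero]
    · simp only [Finset.mem_filter, Finset.mem_univ, true_and] at hu
      exact fun e' => hu (by nth_rw 2 [← e']; exact mul_inv_cancel u)
    · simp only [Finset.mem_filter, Finset.mem_univ, true_and] at hu ⊢
      exact fun e' => hu (by rw [← inv_inv (u * u), mul_inv_rev, e', inv_one])
  rw [h0, add_zero]
  refine Finset.sum_congr rfl fun u hu => ?_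
  simp only [Finset.mem_filter, Finset.mem_univ, true_and] at hu
  rw [inv_eq_of_mul_eq_one_right hu]

/-- A criterion for a single 2-block. -/
theorem sameBlock_of_rigid [DecidableEq G] {M : Ideal AlgInt} (hM : IsPModular 2 M)
    (hrig : ∀ (k : Type) (_ : CommRing k) (_ : CharP k 2) (_ : IsDomain k) (a : G → k),
      (∀ x g, a (x * g * x⁻¹) = a g) → (∀ g, 2 ∣ orderOf g → a g = 0) →
      (∀ h, a (h * h) = ∑ u ∈ Finset.univ.filter (fun u : G => u * u = 1), a (u * h) * a (u * h)) →
      ∀ g, g ≠ 1 → a g = 0)
    (χ ψ : IrrCharacter G) : SameBlock M (χ : G → ℂ) (ψ : G → ℂ) := by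
  classical
  set B := blockOf M (χ : G → ℂ) with hB
  have hB' : IsPBlock M B := isPBlock_blockOf M χ
  by_contra hne
  have hψ : ψ ∉ B := hne
  have hχ : χ ∈ B := mem_blockOf_self hM χ
  have hz := isClassElt_blockElt (G := G) B
  have hi := isIntegralElt_blockElt hM hB'
  letI := residueField hM
  haveI := residue_charP hM
  have hcl : ∀ x g, red hM hi (x * g * x⁻¹) = red hM hi g := by
    intro x g
    simp only [red]
    congr 1
    exact Subtype.ext (hz g x)
  have hsupp : ∀ g, 2 ∣ orderOf g → red hM hi g = 0 := by
    intro g hg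
    rw [red_eq_zero, coeff_blockElt, blockCoeff_eq_zero hM hB' hg]
    exact memLocalIdeal_zero hM
  have heq : ∀ h, red hM hi (h * h) = ∑ u ∈ Finset.univ.filter (fun u : G => u * u = 1),
      red hM hi (u * h) * red hM hi (u * h) := by
    intro h
    rw [← sum_pair_eq _ hcl h, ← red_mul hM hi hi]
    simp only [red]
    congr 1
    exact Subtype.ext (congrArg (fun z : MonoidAlgebra ℂ G => z.coeff (h * h))
      (isIdempotentElem_blockElt B).symm)
  have h0 := hrig _ inferInstance inferInstance inferInstance _ hcl hsupp heq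
  -- the central characters of the idempotent agree modulo `M`
  set c := (blockElt B).coeff 1 with hc
  have key : ∀ φ : IrrCharacter G, MemLocalIdeal M (omega (φ : G → ℂ) (blockElt B) - c) := by
    intro φ
    set w := blockElt B - c • (1 : MonoidAlgebra ℂ G) with hw
    have hwc : IsClassElt w := hz.sub (isClassElt_one.smul _)
    have hwI : ∀ g, MemLocalIdeal M (w.coeff g) := by
      intro g
      by_cases hg : g = 1
      · subst hg
        rw [hw, MonoidAlgebra.coeff_sub, Finsupp.sub_apply, MonoidAlgebra.coeff_smul, Finsupp.smul_apply]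
        simp [hc, MonoidAlgebra.one_def, memLocalIdeal_zero hM]
      · rw [hw, MonoidAlgebra.coeff_sub, Finsupp.sub_apply, MonoidAlgebra.coeff_smul, Finsupp.smul_apply]
        simpa [MonoidAlgebra.one_def, Finsupp.single_eq_of_ne' (Ne.symm hg)] using
          (red_eq_zero hM hi g).1 (h0 g hg)
    have e : omega (φ : G → ℂ) (blockElt B) - c = omega (φ : G → ℂ) w := by
      rw [hw, omega_sub, omega_smul, omega_one φ.2, mul_one]
    rw [e, omega, Finset.sum_div, ← Finset.sum_fiberwise Finset.univ ConjClasses.mk]
    refine memLocalIdeal_sum hM _ fun C _ => ?_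
    have hout : ConjClasses.mk (Quotient.out C : G) = C := Quotient.out_eq C
    have hset : (Finset.univ.filter fun x : G => IsConj (Quotient.out C : G) x) =
        Finset.univ.filter fun x : G => ConjClasses.mk x = C := by
      ext x
      simp only [Finset.mem_filter, Finset.mem_univ, true_and]
      conv_rhs => rw [← hout, ConjClasses.mk_eq_mk_iff_isConj]
      exact ⟨IsConj.symm, IsConj.symm⟩
    rw [Finset.sum_congr rfl (g := fun _ => w.coeff C.out * ((φ : G → ℂ) C.out / (φ : G → ℂ) 1)) ?_,
      Finset.sum_const, nsmul_eq_mul]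
    · have e2 : ((Finset.univ.filter fun x : G => ConjClasses.mk x = C).card : ℂ) *
          (w.coeff C.out * ((φ : G → ℂ) C.out / (φ : G → ℂ) 1)) =
          w.coeff C.out * centralChar (φ : G → ℂ) C.out := by
        rw [centralChar, ← card_conjClass, Nat.card_eq_fintype_card, Fintype.card_subtype, hset]
        ring
      rw [e2]
      exact memLocalIdeal_mul_right hM (hwI _) (memLocalRing_centralChar hM φ _)
    · intro x hx
      have hx' : IsConj (Quotient.out C : G) x :=
        ConjClasses.mk_eq_mk_iff_isConj.1 (hout.trans (Finset.mem_filter.1 hx).2.symm)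
      obtain ⟨d, hd⟩ := isConj_iff.1 hx'
      rw [← hd, coeff_conj hwc, isClassFunction (isCharacter_of_irr φ.2), mul_div_assoc]
  have h1 := key χ
  have h2 := key ψ
  rw [omega_blockElt, if_pos hχ] at h1
  rw [omega_blockElt, if_neg hψ] at h2
  exact not_memLocalIdeal_one hM (by simpa using memLocalIdeal_sub hM h1 h2)

end CfsgLib.MathieuBlock
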