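import Cfsg.Agent.MathieuMisc.Iso
import Cfsg.Agent.MathieuOut.Check
import Cfsg.Agent.MathieuBlock.Rigid
set_option autoImplicit false

/-!
Kernel-checked certificates for the equations of a 2-block idempotent of a stabiliser in the group
of the code.
-/

namespace CfsgLib.MathieuBlock

open Cfsg CfsgLib.Golay CfsgLib.MathieuTwo CfsgLib.MathieuOut

/-- A verdict on an element: a cycle of even length, or a conjugator to a listed element. -/
inductive V
  | even (q n : ℕ)
  | conj (r : ℕ) (c : List ℕ)

/-- The listed element of a verdict. -/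
def V.code : V → Option ℕ
  | .even _ _ => none
  | .conj r _ => some r

/-- Iterated image of a point. -/
def iterT (f : ℕ → ℕ) : ℕ → ℕ → ℕ
  | 0, q => q
  | n + 1, q => f (iterT f n q)

theorem iterT_spec {f : ℕ → ℕ} {y : Equiv.Perm GolayPt} (hf : ∀ q < 24, f q = im y q) {q : ℕ} (hq : q < 24) :
    ∀ n, iterT f n q = im (y ^ n) q
  | 0 => by rw [iterT, pow_zero, im, Equiv.Perm.one_apply, idx_ptN hq]
  | n + 1 => by rw [iterT, pow_succ', im_mul, iterT_spec hf hq n, hf _ (im_lt _ _)]

/-- Image of a point under a product of listed elements. -/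
def lookL (E : List ℕ) : List ℕ → ℕ → ℕ
  | [], q => q
  | i :: c, q => look (E.getD i 0) (lookL E c q)

/-- The product of listed elements. -/
noncomputable def prodL (E : List ℕ) : List ℕ → Equiv.Perm GolayPt
  | [] => 1
  | i :: c => permOf (dec (E.getD i 0)) * prodL E c

/-- Check of a verdict. -/
def vOk (reps E : List ℕ) (f : ℕ → ℕ) : V → Bool
  | .even q n => Nat.blt q 24 && Nat.blt 0 n && Nat.beq (n % 2) 0 && Nat.beq (iterT f n q) q &&
      (List.range (n - 1)).all fun j => !(Nat.beq (iterT f (j + 1) q) q)
  | .conj r c => Nat.blt r reps.length && c.all (fun i => Nat.blt i E.length) &&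
      keyPts.all fun q => Nat.beq (lookL E c (f q)) (look (reps.getD r 0) (lookL E c q))

/-- The listed element. -/
noncomputable def R (reps : List ℕ) (r : ℕ) : Equiv.Perm GolayPt := permOf (dec (reps.getD r 0))

/-- The listed elements are in the group. -/
def repsOk (fixd reps : List ℕ) : Bool :=
  fixd.all (fun m => Nat.blt m 16777216) && reps.all fun n => Golay.gensOk [dec n] fixd

variable {fixd reps : List ℕ}

theorem lt_of_repsOk (h : repsOk fixd reps = true) : ∀ m ∈ fixd, m < 2 ^ 24 := by
  simp only [repsOk, Bool.and_eq_true, List.all_eq_true] at h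
  exact fun m hm => of_blt (h.1 m hm)

theorem R_mem (h : repsOk fixd reps = true) {r : ℕ} (hr : r < reps.length) :
    validTab (dec (reps.getD r 0)) = true ∧ R reps r ∈ fixGroup fixd := by
  have hlt := lt_of_repsOk h
  simp only [repsOk, Bool.and_eq_true, List.all_eq_true] at h
  refine permOf_mem_fixGroup hlt (h.2 _ ?_) (List.mem_singleton_self _)
  rw [List.getD_eq_getElem _ _ hr]; exact List.getElem_mem _

theorem keyPts_eq_one {y : Equiv.Perm GolayPt} (hy : y ∈ fixGroup fixd)
    (hfix : ∀ q ∈ keyPts, im y q = q) : y = 1 :=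
  eq_one_of_fix_sep (by decide) (by decide +kernel) hy
    fun q hq => ⟨by revert q; decide, hfix q hq⟩

theorem two_dvd_orderOf {y : Equiv.Perm GolayPt} {q n : ℕ} (hn : 0 < n) (he : n % 2 = 0)
    (hq : q < 24) (hr : im (y ^ n) q = q) (hmin : ∀ j, 0 < j → j < n → im (y ^ j) q ≠ q) :
    2 ∣ orderOf y := by
  have hmul : ∀ k, im (y ^ (n * k)) q = q := by
    intro k
    induction k with
    | zero => rw [Nat.mul_zero, pow_zero, im, Equiv.Perm.one_apply, idx_ptN hq]
    | succ k ih => rw [Nat.mul_succ, pow_add, im_mul, hr, ih]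
  have hdvd : n ∣ orderOf y := by
    rw [Nat.dvd_iff_mod_eq_zero]
    by_contra hm
    refine hmin _ (Nat.pos_of_ne_zero hm) (Nat.mod_lt _ hn) ?_
    have e : im (y ^ orderOf y) q = q := by
      rw [pow_orderOf_eq_one, im, Equiv.Perm.one_apply, idx_ptN hq]
    rw [← Nat.mod_add_div (orderOf y) n, pow_add, im_mul, hmul] at e
    exact e
  exact (Nat.dvd_of_mod_eq_zero he).trans hdvd

theorem prodL_spec {E : List ℕ} (hE : repsOk fixd E = true) :
    ∀ {c : List ℕ}, (∀ i ∈ c, i < E.length) → prodL E c ∈ fixGroup fixd ∧
      ∀ q < 24, lookL E c q = im (prodL E c) q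
  | [], _ => ⟨one_mem _, fun q hq => by rw [lookL, prodL, im, Equiv.Perm.one_apply, idx_ptN hq]⟩
  | i :: c, h => by
    obtain ⟨h1, h2⟩ := prodL_spec hE (c := c) fun j hj => h j (List.mem_cons_of_mem _ hj)
    obtain ⟨hv, hm⟩ := R_mem hE (h i List.mem_cons_self)
    refine ⟨mul_mem hm h1, fun q hq => ?_⟩
    rw [lookL, prodL, im_mul, h2 q hq, (look_spec hv (im_lt _ _)).1]

/-- A class function on the group vanishing on the elements of even order. -/
structure Sol (fixd : List ℕ) (k : Type) [CommRing k] where
  A : Equiv.Perm GolayPt → k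
  conj : ∀ x ∈ fixGroup fixd, ∀ g ∈ fixGroup fixd, A (x * g * x⁻¹) = A g
  supp : ∀ g ∈ fixGroup fixd, 2 ∣ orderOf g → A g = 0

variable {k : Type} [CommRing k]

/-- The value attached to a code. -/
noncomputable def Sol.val (S : Sol fixd k) (reps : List ℕ) : Option ℕ → k
  | none => 0
  | some r => S.A (R reps r)

theorem Sol.val_spec (S : Sol fixd k) {E : List ℕ} (hR : repsOk fixd reps = true)
    (hE : repsOk fixd E = true) {f : ℕ → ℕ} {y : Equiv.Perm GolayPt} (hf : ∀ q < 24, f q = im y q)
    (hg : y ∈ fixGroup fixd) {v : V}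
    (h : vOk reps E f v = true) : S.A y = S.val reps v.code := by
  cases v with
  | even q n =>
    simp only [vOk, Bool.and_eq_true, Nat.blt_eq, Nat.beq_eq, List.all_eq_true, List.mem_range,
      Bool.not_eq_true'] at h
    obtain ⟨⟨⟨⟨hq, hn⟩, he⟩, hr⟩, hmin⟩ := h
    rw [iterT_spec hf hq] at hr
    refine S.supp _ hg (two_dvd_orderOf hn he hq hr fun j hj hjn e => ?_)
    have h1 := hmin (j - 1) (by omega)
    rw [show j - 1 + 1 = j by omega, iterT_spec hf hq, e] at h1
    simp at h1
  | conj r c =>
    simp only [vOk, Bool.and_eq_true, Nat.blt_eq, Nat.beq_eq, List.all_eq_true] at h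
    obtain ⟨⟨hr, hc⟩, hkey⟩ := h
    obtain ⟨hcm, hcl⟩ := prodL_spec hE hc
    obtain ⟨hrv, hrm⟩ := R_mem hR hr
    have e : prodL E c * y * (prodL E c)⁻¹ = R reps r := by
      rw [mul_inv_eq_iff_eq_mul]
      have h1 : (R reps r * prodL E c)⁻¹ * (prodL E c * y) = 1 := by
        refine keyPts_eq_one (mul_mem (inv_mem (mul_mem hrm hcm)) (mul_mem hcm hg)) fun q hq => ?_
        have hq24 : q < 24 := by revert q; decide
        have h2 := hkey q hq
        rw [hf q hq24, hcl _ (im_lt _ _), hcl _ hq24, (look_spec hrv (im_lt _ _)).1, ← im_mul, ← im_mul] at h2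
        rw [im_mul, show im (prodL E c * y) q = im (R reps r * prodL E c) q from h2,
          ← im_mul, inv_mul_cancel, im, Equiv.Perm.one_apply, idx_ptN hq24]
      exact (inv_mul_eq_one.1 h1).symm
    show _ = S.A (R reps r)
    rw [← e, S.conj _ hcm _ hg]

/-- Check two lists entry by entry. -/
def all2 {α β : Type} (f : α → β → Bool) : List α → List β → Bool
  | [], [] => true
  | a :: l, b :: m => f a b && all2 f l m
  | _, _ => false

theorem all2_map {α β γ : Type} {f : α → β → Bool} {F : α → γ} {G : β → γ} :
    ∀ {l : List α} {m : List β}, all2 f l m = true → (∀ a ∈ l, ∀ b, f a b = true → F a = G b) →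
      l.map F = m.map G
  | [], [], _, _ => rfl
  | a :: l, b :: m, h, hf => by
    rw [all2, Bool.and_eq_true] at h
    rw [List.map_cons, List.map_cons, hf a List.mem_cons_self b h.1,
      all2_map h.2 fun x hx y hy => hf x (List.mem_cons_of_mem _ hx) y hy]
  | [], _ :: _, h, _ => by simp [all2] at h
  | _ :: _, [], h, _ => by simp [all2] at h

theorem exists_of_all2 {α β : Type} {f : α → β → Bool} :
    ∀ {l : List α} {m : List β}, all2 f l m = true → ∀ a ∈ l, ∃ b, f a b = true
  | [], _, _, a, ha => absurd ha List.not_mem_nil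
  | _ :: _, [], h, _, _ => by simp [all2] at h
  | x :: l, y :: m, h, a, ha => by
    rw [all2, Bool.and_eq_true] at h
    rcases List.mem_cons.1 ha with rfl | ha
    · exact ⟨y, h.1⟩
    · exact exists_of_all2 h.2 a ha

/-- Parity of the number of occurrences of a listed element among codes. -/
def evenIn (r : ℕ) : List V → Bool
  | [] => true
  | .even _ _ :: l => evenIn r l
  | .conj s _ :: l => bif Nat.beq s r then !(evenIn r l) else evenIn r l

theorem evenIn_spec (r : ℕ) : ∀ l : List V,
    evenIn r l = true ↔ Even ((l.map V.code).count (some r))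
  | [] => by simp [evenIn]
  | .even _ _ :: l => by simp [evenIn, V.code, evenIn_spec r l]
  | .conj s _ :: l => by
    rw [evenIn, List.map_cons, V.code, List.count_cons]
    cases h : Nat.beq s r with
    | true =>
      have := Nat.eq_of_beq_eq_true h
      subst this
      simp [Nat.even_add_one, ← Nat.not_even_iff_odd, ← evenIn_spec s l]
    | false =>
      have hne : s ≠ r := fun e => by simp [e] at h
      simp [evenIn_spec r l, hne]

theorem Sol.sum_eq_zero [CharP k 2] (S : Sol fixd k) (m : List V)
    (h : ∀ r, some r ∈ m.map V.code → evenIn r m = true ∨ S.A (R reps r) = 0) :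
    ((m.map V.code).map fun c => S.val reps c * S.val reps c).sum = 0 := by
  rw [Finset.sum_list_map_count]
  refine Finset.sum_eq_zero fun c hc => ?_
  rw [List.mem_toFinset] at hc
  cases c with
  | none => simp [Sol.val]
  | some r =>
    rcases h r hc with he | h0
    · obtain ⟨j, hj⟩ : Even (@List.count (Option ℕ) instBEqOfDecidableEq (some r) (m.map V.code)) := by
        convert (evenIn_spec r m).1 he
      rw [hj, nsmul_eq_mul, Nat.cast_add, CharTwo.add_self_eq_zero, zero_mul]
    · simp [Sol.val, h0]

/-- The certificate for the system: the special index, the squares, the rows. -/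
structure Sys where
  fixd : List ℕ
  reps : List ℕ
  conjs : List ℕ
  z : ℕ
  sq : List V
  rows : List (List V)

/-- The verdicts of a row. -/
def rowOk (C : Sys) (T : List ℕ) (i : ℕ) : Bool :=
  all2 (fun t v => vOk C.reps C.conjs (fun q => look t (look (C.reps.getD i 0) q)) v) T (C.rows.getD i [])

/-- The parities, and the squares. -/
def Sys.ok (C : Sys) : Bool :=
  repsOk C.fixd C.reps && repsOk C.fixd C.conjs && Nat.blt C.z C.reps.length &&
  (List.range C.reps.length).all (fun i =>
    vOk C.reps C.conjs (fun q => look (C.reps.getD i 0) (look (C.reps.getD i 0) q)) (C.sq.getD i (.even 0 0)) &&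
    (List.range C.reps.length).all (fun r =>
      evenIn r (C.rows.getD i []) || (!(Nat.beq i C.z) && Nat.beq r C.z))) &&
  ((C.sq.getD C.z (.even 0 0)).code == some C.z) &&
  (List.range C.reps.length).all fun j =>
    (List.range C.reps.length).any fun i => (C.sq.getD i (.even 0 0)).code == some j

theorem Sys.vanish {C : Sys} (hC : C.ok = true) [CharP k 2] (S : Sol C.fixd k) {T : List ℕ}
    (hT : ∀ t ∈ T, validTab (dec t) = true ∧ permOf (dec t) ∈ fixGroup C.fixd)
    (hrows : ∀ i < C.reps.length, rowOk C T i = true)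
    (heq : ∀ g ∈ fixGroup C.fixd,
      S.A (g * g) = (T.map fun t => S.A (permOf (dec t) * g) * S.A (permOf (dec t) * g)).sum) :
    ∀ r < C.reps.length, S.A (R C.reps r) = 0 := by
  simp only [Sys.ok, Bool.and_eq_true, List.all_eq_true, List.mem_range, Nat.blt_eq,
    List.any_eq_true, Bool.or_eq_true, beq_iff_eq, Bool.not_eq_true', Nat.beq_eq] at hC
  obtain ⟨⟨⟨⟨⟨hR, hE⟩, hz⟩, hrow⟩, hzz⟩, hcov⟩ := hC
  have hbound : ∀ (i : ℕ), i < C.reps.length → ∀ r, some r ∈ (C.rows.getD i []).map V.code →
      (i = C.z → evenIn r (C.rows.getD i []) = true) ∧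
      (evenIn r (C.rows.getD i []) = true ∨ r = C.z) := by
    intro i hi r hr
    by_cases hlt : r < C.reps.length
    · rcases (hrow i hi).2 r hlt with h | ⟨h1, h2⟩
      · exact ⟨fun _ => h, Or.inl h⟩
      · exact ⟨fun e => by simp [e] at h1, Or.inr h2⟩
    · exfalso
      obtain ⟨v, hv, hvc⟩ := List.mem_map.1 hr
      have key : ∀ {l : List ℕ} {m : List V},
          all2 (fun t v => vOk C.reps C.conjs (fun q => look t (look (C.reps.getD i 0) q)) v) l m = true →
          ∀ w ∈ m, ∀ s, w.code = some s → s < C.reps.length := by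
        intro l
        induction l with
        | nil => intro m h w hw; cases m with
          | nil => exact absurd hw List.not_mem_nil
          | cons => simp [all2] at h
        | cons a l ih => intro m h w hw; cases m with
          | nil => exact absurd hw List.not_mem_nil
          | cons b m =>
            rw [all2, Bool.and_eq_true] at h
            rcases List.mem_cons.1 hw with rfl | hw
            · intro s hs
              cases w with
              | even q n => simp [V.code] at hs
              | conj r' c =>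
                simp only [V.code, Option.some.injEq] at hs
                subst hs
                simp only [vOk, Bool.and_eq_true, Nat.blt_eq] at h
                exact h.1.1.1
            · exact ih h.2 w hw
      exact hlt (key (hrows i hi) v hv r hvc)
  have hsum : ∀ i < C.reps.length, S.A (R C.reps i * R C.reps i) =
      (((C.rows.getD i []).map V.code).map fun c => S.val C.reps c * S.val C.reps c).sum := by
    intro i hi
    obtain ⟨hiv, him⟩ := R_mem hR hi
    rw [heq _ him, List.map_map]
    congr 1
    refine all2_map (hrows i hi) fun t ht v hv => ?_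
    obtain ⟨htv, htm⟩ := hT t ht
    have := S.val_spec hR hE (y := permOf (dec t) * R C.reps i) (fun q hq => by
      rw [im_mul, R, (look_spec hiv hq).1, (look_spec htv (im_lt _ _)).1]) (mul_mem htm him) hv
    show S.A (permOf (dec t) * R C.reps i) * S.A (permOf (dec t) * R C.reps i) = _
    rw [this]
    rfl
  have hsq : ∀ i < C.reps.length, S.A (R C.reps i * R C.reps i) =
      S.val C.reps (C.sq.getD i (.even 0 0)).code := by
    intro i hi
    obtain ⟨hiv, him⟩ := R_mem hR hi
    exact S.val_spec hR hE (fun q hq => by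
      rw [im_mul, R, (look_spec hiv hq).1, (look_spec hiv (im_lt _ _)).1]) (mul_mem him him) (hrow i hi).1
  have hz0 : S.A (R C.reps C.z) = 0 := by
    have e := hsq C.z hz
    rw [hzz, hsum C.z hz, S.sum_eq_zero _ fun r hr => Or.inl ((hbound C.z hz r hr).1 rfl)] at e
    exact e.symm
  intro j hj
  obtain ⟨i, hi, hij⟩ := hcov j hj
  have e := hsq i hi
  rw [hij, hsum i hi, S.sum_eq_zero _ fun r hr =>
    ((hbound i hi r hr).2).imp id fun (e' : r = C.z) => e' ▸ hz0] at e
  exact e.symm

end CfsgLib.MathieuBlock
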