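import Cfsg.Agent.MathieuBlock.Check
import Cfsg.Agent.MathieuOut.Cards
set_option autoImplicit false

/-!
Enumeration, up to conjugation, by cosets of the stabiliser of four points.
-/

namespace CfsgLib.MathieuBlock

open Cfsg CfsgLib.Golay CfsgLib.MathieuTwo CfsgLib.MathieuOut

/-- The masks of the four points. -/
def four : List ℕ := [2 ^ 23, 2 ^ 0, 2 ^ 1, 2 ^ 2]

theorem card_fixFour : Nat.card (fixGroup four) = 960 := by
  let x : Fin 4 → GolayPt := ![ptN 23, ptN 0, ptN 1, ptN 2]
  have hx : Function.Injective x := by decide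
  have hK : fixGroup four = M24 ⊓ MulAction.stabilizer (Equiv.Perm GolayPt) x := by
    have e : four.map toSet = [{x 0}, {x 1}, {x 2}, {x 3}] := by decide
    simp only [four, List.map_cons, List.map_nil, List.cons.injEq, and_true] at e
    obtain ⟨e0, e1, e2, e3⟩ := e
    ext σ
    rw [Subgroup.mem_inf, mem_fixGroup]
    simp only [four, List.forall_mem_cons, List.not_mem_nil, IsEmpty.forall_iff, implies_true,
      and_true, e0, e1, e2, e3, Finset.smul_finset_singleton, Finset.singleton_inj,
      MulAction.mem_stabilizer_iff, funext_iff, Fin.forall_fin_succ, Fin.succ_zero_eq_one,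
      Fin.succ_one_eq_two, Pi.smul_apply]
    simp [x]
  have h := MathieuMisc.card_stab (K := M24) (x := x) (S := {f : Fin 4 → GolayPt | Function.Injective f})
    (fun g _ => fun i j e => hx (g.injective e))
    (fun f hf => by
      obtain ⟨g, hg, e⟩ := exists_map_tuple (n := 4) (by omega) x f hx hf
      exact ⟨g, hg, funext e⟩)
  have hS : ({f : Fin 4 → GolayPt | Function.Injective f}).ncard = 255024 := by
    rw [← Nat.card_coe_set_eq]
    show Nat.card {f : Fin 4 → GolayPt // Function.Injective f} = _
    rw [Nat.card_congr (Equiv.subtypeInjectiveEquivEmbedding (Fin 4) GolayPt), Nat.card_eq_fintype_card,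
      Fintype.card_embedding_eq, Fintype.card_fin, card_pt]
    decide
  rw [hS, card_M24', ← hK] at h
  omega

variable {gens : List (List ℕ)} {T : STree}

theorem grp_eq_four (h : groupOk four gens T 960 = true) : grp gens = fixGroup four := by
  refine Subgroup.eq_of_le_of_card_ge (grp_le h) ?_
  rw [card_fixFour, card_grp h]

theorem mem_coset (h : groupOk four gens T 960 = true) {h0 : List ℕ} (hv : validTab h0 = true)
    (hm : permOf h0 ∈ M24) {y : Equiv.Perm GolayPt} (hy : y ∈ M24)
    (he : ∀ p ∈ [23, 0, 1, 2], y (ptN p) = permOf h0 (ptN p)) :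
    ∃ l ∈ tabs T, validTab (mulTab h0 l) = true ∧ permOf (mulTab h0 l) = y := by
  have hs : (permOf h0)⁻¹ * y ∈ fixGroup four := by
    refine mem_fixGroup.2 ⟨mul_mem (inv_mem hm) hy, ?_⟩
    have e : four.map toSet = [{ptN 23}, {ptN 0}, {ptN 1}, {ptN 2}] := by decide
    simp only [four, List.map_cons, List.map_nil, List.cons.injEq, and_true] at e
    obtain ⟨e0, e1, e2, e3⟩ := e
    simp only [four, List.forall_mem_cons, List.not_mem_nil, IsEmpty.forall_iff, implies_true,
      and_true, e0, e1, e2, e3, Finset.smul_finset_singleton, Finset.singleton_inj]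
    have key : ∀ p ∈ [23, 0, 1, 2], ((permOf h0)⁻¹ * y) • ptN p = ptN p := fun p hp => by
      rw [Equiv.Perm.smul_def, Equiv.Perm.mul_apply, he p hp]
      exact (permOf h0).symm_apply_apply _
    exact ⟨key _ (by simp), key _ (by simp), key _ (by simp), key _ (by simp)⟩
  rw [← grp_eq_four h, mem_grp h] at hs
  obtain ⟨l, hl, e⟩ := hs
  obtain ⟨hv', e'⟩ := mulTab_spec hv (tab_valid h hl)
  exact ⟨l, hl, hv', by rw [e', e, mul_inv_cancel_left]⟩

/-- An element with a moved point not on a cycle of length two has two distinct images. -/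
theorem two_dvd_of_swap {y : Equiv.Perm GolayPt} {P : GolayPt} (h1 : y P ≠ P) (h2 : y (y P) = P) :
    2 ∣ orderOf y := by
  refine two_dvd_orderOf (y := y) (q := (idx P).val) (n := 2) (by omega) rfl (idx P).isLt ?_ fun j hj hj2 => ?_
  · rw [im, ptN_idx, pow_two, Equiv.Perm.mul_apply, h2]
  · obtain rfl : j = 1 := by omega
    rw [im, ptN_idx, pow_one]
    exact fun e => h1 (idx_injective (Fin.ext e))

end CfsgLib.MathieuBlock
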