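import Cfsg.Agent.MathieuBlock.Ok24
import Cfsg.Agent.MathieuBlock.Row24x0
import Cfsg.Agent.MathieuBlock.Row24x1
import Cfsg.Agent.MathieuBlock.Row24x2
import Cfsg.Agent.MathieuBlock.Row24x3
import Cfsg.Agent.MathieuBlock.Row24x4
import Cfsg.Agent.MathieuBlock.Row24x5
import Cfsg.Agent.MathieuBlock.Row24x6
import Cfsg.Agent.MathieuBlock.Row24x7
set_option autoImplicit false

/-!
The group of the code has no class function solving the equations of a 2-block idempotent other
than the multiples of the identity.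
-/

namespace CfsgLib.MathieuBlock.D24

open Cfsg CfsgLib.Golay CfsgLib.MathieuTwo CfsgLib.MathieuOut

theorem mem_nil {y : Equiv.Perm GolayPt} : y ∈ fixGroup ([] : List ℕ) ↔ y ∈ M24 := by
  simp [mem_fixGroup]

theorem nil_lt : ∀ m ∈ ([] : List ℕ), m < 2 ^ 24 := by simp

/-! ### The number of involutions -/

theorem card_cent {t : List ℕ} (ht : validTab t = true) {E : List ℕ}
    {lv : List (ℕ × List (ℕ × ℕ))} {n : ℕ} (h : centOk t E lv n = true) :
    ∃ C : Subgroup (Equiv.Perm GolayPt), C ≤ M24 ∧ (∀ x ∈ C, x * permOf t = permOf t * x) ∧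
      n ≤ Nat.card C := by
  simp only [centOk, Bool.and_eq_true, List.all_eq_true, eqTab_iff, Nat.beq_eq] at h
  obtain ⟨⟨hE, hlv⟩, hn⟩ := h
  refine ⟨M24 ⊓ Subgroup.centralizer {permOf t}, inf_le_left,
    fun x hx => Subgroup.mem_centralizer_singleton_iff.1 hx.2, ?_⟩
  have h1 := card_le_of_levels (H := M24 ⊓ Subgroup.centralizer {permOf t}) (E := E.map dec)
    (fun g hg => ?_) lv [] hlv (by simp)
  · rw [hn] at h1
    exact h1.trans (Subgroup.card_le_of_le inf_le_left)
  · obtain ⟨e, he, rfl⟩ := List.mem_map.1 hg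
    obtain ⟨hg1, hg2⟩ := hE e he
    obtain ⟨hv, hm⟩ := permOf_mem_fixGroup nil_lt hg1 (List.mem_singleton_self _)
    refine ⟨hv, mem_nil.1 hm, Subgroup.mem_centralizer_singleton_iff.2 ?_⟩
    rw [← (mulTab_spec hv ht).2, hg2, (mulTab_spec ht hv).2]

theorem card_invol {T : Finset (Equiv.Perm GolayPt)} (hT : ∀ y, y ∈ T ↔ y ∈ M24 ∧ y * y = 1) :
    T.card ≤ 43264 := by
  classical
  obtain ⟨hv8, -, -, -⟩ := Invol.permOf_rep true
  obtain ⟨hv0, -, -, -⟩ := Invol.permOf_rep false
  have e8 : Invol.repOf true = Invol.rep8 := rfl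
  have e0 : Invol.repOf false = Invol.rep0 := rfl
  rw [e8] at hv8
  rw [e0] at hv0
  obtain ⟨C8, c8, h8, n8⟩ := card_cent hv8 cent8_ok
  obtain ⟨C0, c0, h0, n0⟩ := card_cent hv0 cent0_ok
  have a8 := card_conjugates_le c8 h8
  have a0 := card_conjugates_le c0 h0
  rw [card_M24'] at a8 a0
  set O8 := {y | ∃ k ∈ M24, k * permOf Invol.rep8 * k⁻¹ = y}
  set O0 := {y | ∃ k ∈ M24, k * permOf Invol.rep0 * k⁻¹ = y}
  have hsub : (T : Set (Equiv.Perm GolayPt)) ⊆ {1} ∪ O8 ∪ O0 := by
    intro y hy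
    obtain ⟨hm, h2⟩ := (hT y).1 hy
    by_cases h1 : y = 1
    · exact Or.inl (Or.inl h1)
    obtain ⟨k, hk, b, e⟩ := Invol.invol_conj hm h2 h1
    cases b
    · exact Or.inr ⟨k, hk, e.symm⟩
    · exact Or.inl (Or.inr ⟨k, hk, e.symm⟩)
  have h1 := Set.ncard_le_ncard hsub (Set.toFinite _)
  rw [Set.ncard_coe_finset] at h1
  have h2 := Set.ncard_union_le ({1} ∪ O8) O0
  have h3 := Set.ncard_union_le ({1} : Set (Equiv.Perm GolayPt)) O8
  rw [Set.ncard_singleton] at h3
  have b8 : O8.ncard * 21504 ≤ 244823040 := le_trans (Nat.mul_le_mul_left _ n8) a8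
  have b0 : O0.ncard * 7680 ≤ 244823040 := le_trans (Nat.mul_le_mul_left _ n0) a0
  omega

/-! ### Rows -/

variable {k : Type} [CommRing k] [CharP k 2]

/-- The equations. -/
def Eqs (S : Sol ([] : List ℕ) k) (T : Finset (Equiv.Perm GolayPt)) : Prop :=
  ∀ g ∈ M24, S.A (g * g) = ∑ u ∈ T, S.A (u * g) * S.A (u * g)

theorem row_zero {P : List ℕ} {m : ℕ} {L : List Rep} {row : List V} {i : ℕ} (hi : i < 12)
    (hO : orbitsOk conjs P m 43264 L = true)
    (hrow : all2 (fun (e : Rep) v => vOk reps conjs (fun q => look e.1 (look (reps.getD i 0) q)) v) L row = true)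
    (hcomm : (keyPts.all fun q => Nat.beq (look (P.getD 1 0) (look (reps.getD i 0) q))
      (look (reps.getD i 0) (look (P.getD 1 0) q))) = true)
    (hbd : (row.all fun v => match v.code with | none => true | some r => Nat.blt r 12) = true)
    (S : Sol ([] : List ℕ) k) {T : Finset (Equiv.Perm GolayPt)} (hT : ∀ y, y ∈ T ↔ y ∈ M24 ∧ y * y = 1)
    (hpar : ∀ r < 12, evenIn r row = true ∨ S.A (R reps r) = 0) (heq : Eqs S T) :
    S.A (R reps i * R reps i) = 0 := by
  obtain ⟨hR, hE, hlen⟩ := reps_ok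
  obtain ⟨c, hc, hcM, -, hrep⟩ := orbits_facts hO
  obtain ⟨hiv, him⟩ := R_mem hR (hlen ▸ hi)
  have hcv : validTab (dec (P.getD 1 0)) = true := by
    simp only [orbitsOk, Bool.and_eq_true] at hO
    exact (permOf_mem_fixGroup nil_lt hO.1.1.1.1.1.1.2 (List.mem_singleton_self _)).1
  have hci : c * R reps i = R reps i * c := by
    refine eq_of_keyVals (mul_mem hcM (mem_nil.1 him)) (mul_mem (mem_nil.1 him) hcM)
      (List.map_eq_map_iff.2 fun q hq => ?_)
    have hq24 : q < 24 := by revert q; decide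
    have e := Nat.eq_of_beq_eq_true (List.all_eq_true.1 hcomm q hq)
    rwa [(look_spec hiv hq24).1, (look_spec hcv (im_lt _ _)).1, (look_spec hcv hq24).1,
      (look_spec hiv (im_lt _ _)).1, ← im_mul, ← im_mul, ← hc] at e
  rw [heq _ (mem_nil.1 him), orbits_sum hO hT (card_invol hT)
    (fun u => S.A (u * R reps i) * S.A (u * R reps i)) fun j y hy => ?_]
  · have e : (L.map fun e => S.A (repElt conjs e * R reps i) * S.A (repElt conjs e * R reps i)) =
        (row.map V.code).map fun c => S.val reps c * S.val reps c := by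
      rw [List.map_map]
      refine all2_map hrow fun e he v hv => ?_
      obtain ⟨hm, -, -, hl, -⟩ := hrep e he
      have e1 := S.val_spec hR hE (y := repElt conjs e * R reps i) (fun q hq => by
        rw [im_mul, R, (look_spec hiv hq).1, hl _ (im_lt _ _)]) (mul_mem (mem_nil.2 hm) him) hv
      show _ = S.val reps v.code * S.val reps v.code
      rw [e1]
    rw [e]
    refine S.sum_eq_zero row fun r hr => hpar r ?_
    obtain ⟨v, hv, hvc⟩ := List.mem_map.1 hr
    have := List.all_eq_true.1 hbd v hv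
    rw [hvc] at this
    exact of_blt this
  · rw [← hc]
    have h1 : c ^ j * R reps i = R reps i * c ^ j := (Commute.pow_left hci j).eq
    have h2 : c ^ j * y * (c ^ j)⁻¹ * R reps i = c ^ j * (y * R reps i) * (c ^ j)⁻¹ := by
      calc c ^ j * y * (c ^ j)⁻¹ * R reps i
          = c ^ j * y * (c ^ j)⁻¹ * (R reps i * c ^ j) * (c ^ j)⁻¹ := by group
        _ = c ^ j * y * (c ^ j)⁻¹ * (c ^ j * R reps i) * (c ^ j)⁻¹ := by rw [h1]
        _ = _ := by group
    rw [h2, S.conj _ (mem_nil.2 (pow_mem hcM j)) _ (mul_mem (mem_nil.2 hy) him)]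

theorem parity {row : List V} {ex : ℕ → Bool}
    (h : (List.range 12).all (fun r => evenIn r row || ex r) = true) :
    ∀ r < 12, evenIn r row = true ∨ ex r = true := by
  intro r hr
  have := List.all_eq_true.1 h r (List.mem_range.2 hr)
  rwa [Bool.or_eq_true] at this

theorem mains_zero (S : Sol ([] : List ℕ) k) {T : Finset (Equiv.Perm GolayPt)}
    (hT : ∀ y, y ∈ T ↔ y ∈ M24 ∧ y * y = 1) (heq : Eqs S T) :
    ∀ e ∈ mains, S.A (R reps e.1 * R reps e.1) = 0 := by
  obtain ⟨hR, hE, hlen⟩ := reps_ok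
  obtain ⟨hlist, hz, hzc⟩ := head_ok
  have key : ∀ (i : ℕ) (ex : Bool) {P : List ℕ} {m : ℕ} {L : List Rep} {row : List V}, i < 12 →
      orbitsOk conjs P m 43264 L = true →
      (all2 (fun (e : Rep) v => vOk reps conjs (fun q => look e.1 (look (reps.getD i 0) q)) v) L row = true ∧
        (List.range 12).all (fun r => evenIn r row || (ex && Nat.beq r z)) = true ∧
        (row.all fun v => match v.code with | none => true | some r => Nat.blt r 12) = true) →
      (keyPts.all fun q => Nat.beq (look (P.getD 1 0) (look (reps.getD i 0) q))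
        (look (reps.getD i 0) (look (P.getD 1 0) q))) = true →
      (ex = true → S.A (R reps z) = 0) → S.A (R reps i * R reps i) = 0 := by
    intro i ex P m L row hi hO h hc hex
    refine row_zero hi hO h.1 hc h.2.2 S hT (fun r hr => ?_) heq
    rcases parity h.2.1 r hr with h' | h'
    · exact Or.inl h'
    · rw [Bool.and_eq_true] at h'
      rw [Nat.eq_of_beq_eq_true h'.2]
      exact Or.inr (hex h'.1)
  have r0 : S.A (R reps 10 * R reps 10) = 0 :=
    key 10 false (by omega) orb1_ok ⟨row0_ok.1, (by simpa only [Bool.false_and] using row0_ok.2.1), row0_ok.2.2⟩ (by decide +kernel) (by simp)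
  have hz0 : S.A (R reps z) = 0 := by
    have hok := mains_ok
    simp only [mainsOk, Bool.and_eq_true, List.all_eq_true] at hok
    obtain ⟨e0, he0, h1, h2⟩ : ∃ e0 ∈ mains, e0.1 = 10 ∧ e0.2.2.2.1.code = some 10 := by
      cases hm : mains with
      | nil => rw [hm] at hlist; simp at hlist
      | cons a l =>
        rw [hm] at hlist hzc
        simp only [List.map_cons, List.cons.injEq, Prod.mk.injEq] at hlist
        exact ⟨a, List.mem_cons_self, hlist.1.1, by simpa using hzc⟩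
    obtain ⟨hv, -⟩ := hok
    have hv' := (hv e0 he0).1.2
    obtain ⟨hiv, him⟩ := R_mem hR (show e0.1 < reps.length by omega)
    have e := S.val_spec hR hE (y := R reps e0.1 * R reps e0.1) (fun q hq => by
      rw [im_mul, R, (look_spec hiv hq).1, (look_spec hiv (im_lt _ _)).1]) (mul_mem him him) hv'
    rw [h1, h2, r0] at e
    rw [hz]
    exact e.symm
  intro e he
  have hmem : (e.1, e.2.1) ∈ [(10, 1), (0, 0), (1, 1), (3, 2), (5, 3), (7, 1), (8, 2), (11, 2)] :=
    hlist ▸ List.mem_map.2 ⟨e, he, rfl⟩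
  simp only [List.mem_cons, List.not_mem_nil, or_false, Prod.mk.injEq] at hmem
  rcases hmem with h | h | h | h | h | h | h | h <;> rw [h.1]
  · exact r0
  · exact key 0 true (by omega) orb0_ok ⟨row1_ok.1, (by simpa only [Bool.true_and, z] using row1_ok.2.1), row1_ok.2.2⟩ (by decide +kernel) fun _ => hz0
  · exact key 1 true (by omega) orb1_ok ⟨row2_ok.1, (by simpa only [Bool.true_and, z] using row2_ok.2.1), row2_ok.2.2⟩ (by decide +kernel) fun _ => hz0
  · exact key 3 true (by omega) orb2_ok ⟨row3_ok.1, (by simpa only [Bool.true_and, z] using row3_ok.2.1), row3_ok.2.2⟩ (by decide +kernel) fun _ => hz0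
  · exact key 5 true (by omega) orb3_ok ⟨row4_ok.1, (by simpa only [Bool.true_and, z] using row4_ok.2.1), row4_ok.2.2⟩ (by decide +kernel) fun _ => hz0
  · exact key 7 true (by omega) orb1_ok ⟨row5_ok.1, (by simpa only [Bool.true_and, z] using row5_ok.2.1), row5_ok.2.2⟩ (by decide +kernel) fun _ => hz0
  · exact key 8 true (by omega) orb2_ok ⟨row6_ok.1, (by simpa only [Bool.true_and, z] using row6_ok.2.1), row6_ok.2.2⟩ (by decide +kernel) fun _ => hz0
  · exact key 11 true (by omega) orb2_ok ⟨row7_ok.1, (by simpa only [Bool.true_and, z] using row7_ok.2.1), row7_ok.2.2⟩ (by decide +kernel) fun _ => hz0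

/-- The inverse solution. -/
noncomputable def flipSol (S : Sol ([] : List ℕ) k) : Sol ([] : List ℕ) k where
  A g := S.A g⁻¹
  conj x hx g hg := by
    rw [mul_inv_rev, mul_inv_rev, inv_inv, ← mul_assoc]
    exact S.conj x hx g⁻¹ (inv_mem hg)
  supp g hg h := S.supp _ (inv_mem hg) (by rwa [orderOf_inv])

theorem eqs_flip {S : Sol ([] : List ℕ) k} {T : Finset (Equiv.Perm GolayPt)}
    (hT : ∀ y, y ∈ T ↔ y ∈ M24 ∧ y * y = 1) (heq : Eqs S T) : Eqs (flipSol S) T := by
  intro g hg
  show S.A (g * g)⁻¹ = ∑ u ∈ T, S.A (u * g)⁻¹ * S.A (u * g)⁻¹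
  rw [mul_inv_rev, heq _ (inv_mem hg)]
  refine Finset.sum_congr rfl fun u hu => ?_
  obtain ⟨hm, h2⟩ := (hT u).1 hu
  have e : (u * g)⁻¹ = g⁻¹ * (u * g⁻¹) * (g⁻¹)⁻¹ := by
    rw [mul_inv_rev, inv_eq_of_mul_eq_one_right h2]; group
  rw [e, S.conj _ (mem_nil.2 (inv_mem hg)) _ (mem_nil.2 (mul_mem hm (inv_mem hg)))]

theorem reps_zero (S : Sol ([] : List ℕ) k) {T : Finset (Equiv.Perm GolayPt)}
    (hT : ∀ y, y ∈ T ↔ y ∈ M24 ∧ y * y = 1) (heq : Eqs S T) : ∀ r < 12, S.A (R reps r) = 0 := by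
  obtain ⟨hR, hE, hlen⟩ := reps_ok
  intro r hr
  have hok := mains_ok
  simp only [mainsOk, Bool.and_eq_true, List.all_eq_true, List.mem_range, List.any_eq_true,
    Bool.or_eq_true, beq_iff_eq, Nat.blt_eq, Nat.beq_eq] at hok
  obtain ⟨e, he, hcode⟩ := hok.2 r hr
  obtain ⟨⟨⟨⟨hlt, hiv'⟩, hinv⟩, hs1⟩, hs2⟩ := hok.1 e he
  obtain ⟨hiv, him⟩ := R_mem hR (show e.1 < reps.length by omega)
  rcases hcode with hcode | hcode
  · have e1 := S.val_spec hR hE (y := R reps e.1 * R reps e.1) (fun q hq => by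
      rw [im_mul, R, (look_spec hiv hq).1, (look_spec hiv (im_lt _ _)).1]) (mul_mem him him) hs1
    rw [hcode, mains_zero S hT heq e he] at e1
    exact e1.symm
  · have hinvp : permOf (dec e.2.2.1) = (R reps e.1)⁻¹ := by
      refine eq_inv_of_mul_eq_one_right (ext_im fun q hq => ?_)
      have e2 := hinv q hq
      rw [(look_spec hiv' hq).1, (look_spec hiv (im_lt _ _)).1, ← im_mul] at e2
      rw [R, e2, im, Equiv.Perm.one_apply, idx_ptN hq]
    have e1 := S.val_spec hR hE (y := (R reps e.1 * R reps e.1)⁻¹) (fun q hq => by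
      rw [mul_inv_rev, im_mul, ← hinvp, (look_spec hiv' hq).1, (look_spec hiv' (im_lt _ _)).1])
      (inv_mem (mul_mem him him)) hs2
    have e0 : S.A (R reps e.1 * R reps e.1)⁻¹ = 0 := mains_zero (flipSol S) hT (eqs_flip hT heq) e he
    rw [hcode, e0] at e1
    exact e1.symm

/-! ### Every element of odd order -/

theorem im_eq_ptN {y : Equiv.Perm GolayPt} {l : List ℕ} (hv : validTab l = true) (he : permOf l = y)
    {p : ℕ} (hp : p < 24) : y (ptN p) = ptN (l.getD p 0) := by
  rw [← he, ← im_permOf hv hp, im, ptN_idx]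

theorem cov_zero (S : Sol ([] : List ℕ) k) (h0 : ∀ r < 12, S.A (R reps r) = 0) {h : ℕ}
    {imgs : List ℕ} {cov : List V} (hc : covOk h imgs cov = true) {y : Equiv.Perm GolayPt} (hy : y ∈ M24)
    (hi : [23, 0, 1, 2].map (fun p => y (ptN p)) = imgs.map ptN) : S.A y = 0 := by
  simp only [covOk, Bool.and_eq_true, eqTab_iff] at hc
  obtain ⟨⟨hh, himg⟩, hall⟩ := hc
  obtain ⟨hhv, hhm⟩ := permOf_mem_fixGroup nil_lt hh (List.mem_singleton_self _)
  obtain ⟨l, hl, hv, he⟩ := mem_coset tree_ok hhv (mem_nil.1 hhm) hy (fun p hp => by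
    rw [← himg, List.map_map] at hi
    rw [List.map_eq_map_iff.1 hi p hp]
    have hp24 : p < 24 := by revert p; decide
    exact (im_eq_ptN hhv rfl hp24).symm)
  obtain ⟨v, hvv⟩ := exists_of_all2 hall l hl
  obtain ⟨hR, hE, hlen⟩ := reps_ok
  rw [S.val_spec hR hE (fun q hq => (by rw [← he, im_permOf hv hq])) (mem_nil.2 hy) hvv]
  cases v with
  | even q n => rfl
  | conj r c =>
    simp only [vOk, Bool.and_eq_true, Nat.blt_eq] at hvv
    exact h0 r (hlen ▸ hvv.1.1)

theorem all_zero (S : Sol ([] : List ℕ) k) (h0 : ∀ r < 12, S.A (R reps r) = 0)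
    (g : Equiv.Perm GolayPt) (hg : g ∈ M24) (h1 : g ≠ 1) : S.A g = 0 := by
  classical
  by_cases hev : 2 ∣ orderOf g
  · exact S.supp g (mem_nil.2 hg) hev
  obtain ⟨P, hP⟩ : ∃ P, g P ≠ P := not_forall.1 fun h => h1 (Equiv.ext h)
  have hP1 : g (g P) ≠ g P := fun e => hP (g.injective e)
  have hP2 : g (g P) ≠ P := fun e => hev (two_dvd_of_swap hP e)
  have conjEq : ∀ {s : Equiv.Perm GolayPt}, s ∈ M24 → S.A g = S.A (s * g * s⁻¹) :=
    fun {s} hs => (S.conj s (mem_nil.2 hs) g (mem_nil.2 hg)).symm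
  have step : ∀ {s : Equiv.Perm GolayPt} {X Y A B : GolayPt}, s X = A → s Y = B → g X = Y →
      (s * g * s⁻¹) A = B := by
    intro s X Y A B hX hY hg'
    rw [← hX, ← hY, Equiv.Perm.mul_apply, Equiv.Perm.mul_apply, Equiv.Perm.coe_inv,
      Equiv.symm_apply_apply, hg']
  by_cases h3 : g (g (g P)) = P
  · -- a cycle of length three
    obtain ⟨X, hX⟩ : ∃ X, X ∉ ({P, g P, g (g P)} : Finset GolayPt) := by
      refine not_forall.1 fun h => ?_
      have h4 := Finset.card_le_card (s := (Finset.univ : Finset GolayPt)) fun x _ => h x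
      rw [Finset.card_univ, card_pt] at h4
      exact absurd (h4.trans Finset.card_le_three) (by omega)
    simp only [Finset.mem_insert, Finset.mem_singleton, not_or] at hX
    by_cases hfx : g X = X
    · obtain ⟨s, hs, e⟩ := exists_map_tuple (n := 4) (by omega) ![P, g P, g (g P), X]
        ![ptN 23, ptN 0, ptN 1, ptN 2]
        (List.nodup_ofFn.1 (by simp [List.ofFn_succ, List.nodup_cons, Equiv.apply_eq_iff_eq, hP, Ne.symm hP, hP2, Ne.symm hP2, hP1, Ne.symm hP1, hX, Ne.symm hX.1, Ne.symm hX.2.1, Ne.symm hX.2.2]))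
        (by decide)
      have e0 : s (P) = ptN 23 := e 0
      have e1 : s (g P) = ptN 0 := e 1
      have e2 : s (g (g P)) = ptN 1 := e 2
      have e3 : s (X) = ptN 2 := e 3
      rw [conjEq hs]
      refine cov_zero S h0 cov2_ok (mul_mem (mul_mem hs hg) (inv_mem hs)) ?_
      simp only [List.map_cons, List.map_nil, step e0 e1 rfl, step e1 e2 rfl,
        step e2 e0 h3, step e3 e3 hfx]
    · have hY : g X ≠ P ∧ g X ≠ g P ∧ g X ≠ g (g P) :=
        ⟨fun e => hX.2.2 (g.injective (e.trans h3.symm)), fun e => hX.1 (g.injective e),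
          fun e => hX.2.1 (g.injective e)⟩
      obtain ⟨s, hs, e⟩ := exists_map_tuple (n := 5) le_rfl ![P, g P, g (g P), X, g X]
        ![ptN 23, ptN 0, ptN 1, ptN 2, ptN 3]
        (List.nodup_ofFn.1 (by simp [List.ofFn_succ, List.nodup_cons, Equiv.apply_eq_iff_eq, hP, Ne.symm hP, hP2, Ne.symm hP2, hP1, Ne.symm hP1, hX, Ne.symm hX.1, Ne.symm hX.2.1, Ne.symm hX.2.2, hY, Ne.symm hY.1, Ne.symm hY.2.1, Ne.symm hY.2.2, hfx, Ne.symm hfx]))
        (by decide)
      have e0 : s (P) = ptN 23 := e 0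
      have e1 : s (g P) = ptN 0 := e 1
      have e2 : s (g (g P)) = ptN 1 := e 2
      have e3 : s (X) = ptN 2 := e 3
      have e4 : s (g X) = ptN 3 := e 4
      rw [conjEq hs]
      refine cov_zero S h0 cov1_ok (mul_mem (mul_mem hs hg) (inv_mem hs)) ?_
      simp only [List.map_cons, List.map_nil, step e0 e1 rfl, step e1 e2 rfl,
        step e2 e0 h3, step e3 e4 rfl]
  · -- a longer cycle
    have h4 : g (g (g (g P))) ≠ P := fun e => hev (two_dvd_orderOf (y := g) (q := (idx P).val) (n := 4)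
      (by omega) rfl (idx P).isLt (by simp [im, ptN_idx, pow_succ, Equiv.Perm.mul_apply, e]) (by
      intro j hj hj4
      rcases j with _ | _ | _ | _ | j
      · omega
      · intro e'; simp only [im, ptN_idx, pow_one] at e'; exact hP (idx_injective (Fin.ext e'))
      · intro e'; simp only [im, ptN_idx, pow_succ, pow_zero, one_mul, Equiv.Perm.mul_apply] at e'
        exact hP2 (idx_injective (Fin.ext e'))
      · intro e'; simp only [im, ptN_idx, pow_succ, pow_zero, one_mul, Equiv.Perm.mul_apply] at e'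
        exact h3 (idx_injective (Fin.ext e'))
      · omega))
    obtain ⟨s, hs, e⟩ := exists_map_tuple (n := 5) le_rfl
      ![P, g P, g (g P), g (g (g P)), g (g (g (g P)))]
      ![ptN 23, ptN 0, ptN 1, ptN 2, ptN 3]
      (List.nodup_ofFn.1 (by simp [List.ofFn_succ, List.nodup_cons, Equiv.apply_eq_iff_eq, hP, Ne.symm hP, hP2, Ne.symm hP2, hP1, Ne.symm hP1, h3, Ne.symm h3, h4, Ne.symm h4]))
      (by decide)
    have e0 : s (P) = ptN 23 := e 0
    have e1 : s (g P) = ptN 0 := e 1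
    have e2 : s (g (g P)) = ptN 1 := e 2
    have e3 : s (g (g (g P))) = ptN 2 := e 3
    have e4 : s (g (g (g (g P)))) = ptN 3 := e 4
    rw [conjEq hs]
    refine cov_zero S h0 cov0_ok (mul_mem (mul_mem hs hg) (inv_mem hs)) ?_
    simp only [List.map_cons, List.map_nil, step e0 e1 rfl, step e1 e2 rfl,
      step e2 e3 rfl, step e3 e4 rfl]

/-- The group of the code has no other solution. -/
theorem rigid (k : Type) [CommRing k] [CharP k 2] [Fintype ↥M24] [DecidableEq ↥M24]
    (a : ↥M24 → k) (hcl : ∀ x g, a (x * g * x⁻¹) = a g) (hsupp : ∀ g, 2 ∣ orderOf g → a g = 0)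
    (heq : ∀ h, a (h * h) = ∑ u ∈ Finset.univ.filter (fun u : ↥M24 => u * u = 1),
      a (u * h) * a (u * h)) (g : ↥M24) (hg : g ≠ 1) : a g = 0 := by
  classical
  let S : Sol ([] : List ℕ) k :=
    { A := fun y => if h : y ∈ M24 then a ⟨y, h⟩ else 0
      conj := fun x hx y hy => by
        rw [mem_nil] at hx hy
        rw [dif_pos (mul_mem (mul_mem hx hy) (inv_mem hx)), dif_pos hy]
        exact hcl ⟨x, hx⟩ ⟨y, hy⟩
      supp := fun y hy h => by
        rw [mem_nil] at hy
        rw [dif_pos hy]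
        refine hsupp _ ?_
        rwa [← Subgroup.orderOf_coe] }
  have hA : ∀ x : ↥M24, S.A x = a x := fun x => dif_pos x.2
  set T0 : Finset ↥M24 := Finset.univ.filter fun u : ↥M24 => u * u = 1 with hT0
  set T : Finset (Equiv.Perm GolayPt) := T0.image (Subtype.val : ↥M24 → Equiv.Perm GolayPt) with hTdef
  have hT : ∀ y, y ∈ T ↔ y ∈ M24 ∧ y * y = 1 := by
    intro y
    simp only [hTdef, hT0, Finset.mem_image, Finset.mem_filter, Finset.mem_univ, true_and]
    exact ⟨fun ⟨u, hu, e⟩ => e ▸ ⟨u.2, congrArg Subtype.val hu⟩,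
      fun ⟨h, h2⟩ => ⟨⟨y, h⟩, Subtype.ext h2, rfl⟩⟩
  have hEq : Eqs S T := by
    intro y hy
    rw [hTdef, Finset.sum_image (fun _ _ _ _ e => Subtype.ext e)]
    have e := heq ⟨y, hy⟩
    simp only [← hA, Subgroup.coe_mul] at e
    exact e
  rw [← hA]
  exact all_zero S (reps_zero S hT hEq) _ g.2 fun e => hg (Subtype.ext e)

end CfsgLib.MathieuBlock.D24
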