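import Cfsg.Agent.MathieuBlock.Check
import Cfsg.Agent.MathieuBlock.Data22
import Cfsg.Agent.MathieuBlock.Row22x0
import Cfsg.Agent.MathieuBlock.Row22x1
import Cfsg.Agent.MathieuBlock.Row22x2
import Cfsg.Agent.MathieuBlock.Row22x3
import Cfsg.Agent.MathieuBlock.Row22x4
import Cfsg.Agent.MathieuBlock.Row22x5
set_option autoImplicit false
set_option maxRecDepth 20000

/-!
Certificate data for the 2-block of M22 (found by a computer search, checked by the kernel).
-/

namespace CfsgLib.MathieuBlock.D22

open CfsgLib.Golay CfsgLib.MathieuTwo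

/-- Chunk. -/
def sqPart0 : List V := [.conj 0 [0, 29, 59, 89], .conj 1 [0, 23, 52, 108], .conj 5 [3, 35, 51, 99], .conj 3 [0, 26, 61, 101], .conj 4 [14, 35, 44, 109], .conj 2 [5, 42, 45, 104]]

/-- Sq. -/
def sq : List V := sqPart0

/-- The certificate. -/
def sys : Sys where
  fixd := [8388608, 1]
  reps := reps
  conjs := conjs
  z := 1
  sq := sq
  rows := [row0, row1, row2, row3, row4, row5]

end CfsgLib.MathieuBlock.D22
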