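import Cfsg.Agent.MathieuBlock.Cover
import Cfsg.Agent.MathieuTwo.Split
import Cfsg.Agent.MathieuBlock.Sys22
import Cfsg.Agent.MathieuOut.Data22
set_option autoImplicit false
set_option Elab.async false

/-!
The kernel checks of the certificate for the 2-block of M22.
-/

namespace CfsgLib.MathieuBlock.D22

open CfsgLib.Golay CfsgLib.MathieuTwo CfsgLib.MathieuOut

theorem tree_ok_block0 : (block 192 0 CfsgLib.MathieuBlock.D22.tree.flat).all (elemOk CfsgLib.MathieuBlock.D22.gens CfsgLib.MathieuBlock.D22.tree) = true := by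
  decide +kernel

theorem tree_ok_block1 : (block 192 1 CfsgLib.MathieuBlock.D22.tree.flat).all (elemOk CfsgLib.MathieuBlock.D22.gens CfsgLib.MathieuBlock.D22.tree) = true := by
  decide +kernel

theorem tree_ok_block2 : (block 192 2 CfsgLib.MathieuBlock.D22.tree.flat).all (elemOk CfsgLib.MathieuBlock.D22.gens CfsgLib.MathieuBlock.D22.tree) = true := by
  decide +kernel

theorem tree_ok_block3 : (block 192 3 CfsgLib.MathieuBlock.D22.tree.flat).all (elemOk CfsgLib.MathieuBlock.D22.gens CfsgLib.MathieuBlock.D22.tree) = true := by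
  decide +kernel

theorem tree_ok_block4 : (block 192 4 CfsgLib.MathieuBlock.D22.tree.flat).all (elemOk CfsgLib.MathieuBlock.D22.gens CfsgLib.MathieuBlock.D22.tree) = true := by
  decide +kernel

theorem tree_ok_head : headOk four CfsgLib.MathieuBlock.D22.gens CfsgLib.MathieuBlock.D22.tree 960 = true := by decide +kernel

theorem tree_ok : groupOk four CfsgLib.MathieuBlock.D22.gens CfsgLib.MathieuBlock.D22.tree 960 = true := by
  refine groupOk_of_blocks 192 5 (by norm_num) tree_ok_head fun i hi => ?_
  match i, hi with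
  | 0, _ => exact tree_ok_block0
  | 1, _ => exact tree_ok_block1
  | 2, _ => exact tree_ok_block2
  | 3, _ => exact tree_ok_block3
  | 4, _ => exact tree_ok_block4
  | i + 5, hi => omega

/-- The involution list: closed under conjugation by the generators, each entry obtained from an
earlier one. -/
def invsOk : Bool :=
  let L := CfsgLib.MathieuBlock.D22.invs
  let gA := CfsgLib.MathieuBlock.D22.ga
  let gB := CfsgLib.MathieuBlock.D22.gb
  eqTab (dec gA) CfsgLib.MathieuOut.D22.cert.a && eqTab (dec gB) CfsgLib.MathieuOut.D22.cert.b &&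
  incr L && L.all (fun t => validTab (dec t) && !(eqTab (dec t) idT) && Nat.beq (enc (dec t)) t &&
    (List.range 24).all fun q => Nat.beq (look t (look t q)) q) &&
  CfsgLib.MathieuBlock.D22.itree.flat.all (fun e => bif Nat.beq e.2.2.2 0 then CfsgLib.Golay.gensOk [dec e.1] sys.fixd else
    CfsgLib.MathieuBlock.D22.itree.findLt e.2.2.1 e.2.2.2 && Nat.blt e.2.1 2 &&
    (List.range 24).all fun q => Nat.beq (look (bif Nat.beq e.2.1 0 then gA else gB) (look e.2.2.1 q))
      (look e.1 (look (bif Nat.beq e.2.1 0 then gA else gB) q))) &&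
  all2 (fun t u => CfsgLib.MathieuBlock.D22.itree.findLt u 4096 &&
    keyPts.all fun q => Nat.beq (look gA (look t q)) (look u (look gA q)))
    L CfsgLib.MathieuBlock.D22.moveA &&
  all2 (fun t u => CfsgLib.MathieuBlock.D22.itree.findLt u 4096 &&
    keyPts.all fun q => Nat.beq (look gB (look t q)) (look u (look gB q)))
    L CfsgLib.MathieuBlock.D22.moveB

theorem invs_ok0 :
    (eqTab (dec CfsgLib.MathieuBlock.D22.ga) CfsgLib.MathieuOut.D22.cert.a && eqTab (dec CfsgLib.MathieuBlock.D22.gb) CfsgLib.MathieuOut.D22.cert.b &&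
    incr CfsgLib.MathieuBlock.D22.invs) = true := by
  decide +kernel

theorem invs_ok1_block0 : (block 300 0 CfsgLib.MathieuBlock.D22.invs).all
    (fun t => validTab (dec t) && !(eqTab (dec t) idT) && Nat.beq (enc (dec t)) t &&
    (List.range 24).all fun q => Nat.beq (look t (look t q)) q) = true := by
  decide +kernel

theorem invs_ok1_block1 : (block 300 1 CfsgLib.MathieuBlock.D22.invs).all
    (fun t => validTab (dec t) && !(eqTab (dec t) idT) && Nat.beq (enc (dec t)) t &&
    (List.range 24).all fun q => Nat.beq (look t (look t q)) q) = true := by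
  decide +kernel

theorem invs_ok1_block2 : (block 300 2 CfsgLib.MathieuBlock.D22.invs).all
    (fun t => validTab (dec t) && !(eqTab (dec t) idT) && Nat.beq (enc (dec t)) t &&
    (List.range 24).all fun q => Nat.beq (look t (look t q)) q) = true := by
  decide +kernel

theorem invs_ok1_block3 : (block 300 3 CfsgLib.MathieuBlock.D22.invs).all
    (fun t => validTab (dec t) && !(eqTab (dec t) idT) && Nat.beq (enc (dec t)) t &&
    (List.range 24).all fun q => Nat.beq (look t (look t q)) q) = true := by
  decide +kernel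

theorem invs_ok1 : (CfsgLib.MathieuBlock.D22.invs.all (fun t => validTab (dec t) && !(eqTab (dec t) idT) && Nat.beq (enc (dec t)) t &&
    (List.range 24).all fun q => Nat.beq (look t (look t q)) q)) = true := by
  refine all_of_blocks 300 4 _ (by decide +kernel) fun i hi => ?_
  match i, hi with
  | 0, _ => exact invs_ok1_block0
  | 1, _ => exact invs_ok1_block1
  | 2, _ => exact invs_ok1_block2
  | 3, _ => exact invs_ok1_block3
  | i + 4, hi => omega

theorem invs_ok2 :
    (CfsgLib.MathieuBlock.D22.itree.flat.all fun e => bif Nat.beq e.2.2.2 0 then CfsgLib.Golay.gensOk [dec e.1] sys.fixd else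
    CfsgLib.MathieuBlock.D22.itree.findLt e.2.2.1 e.2.2.2 && Nat.blt e.2.1 2 &&
    (List.range 24).all fun q => Nat.beq (look (bif Nat.beq e.2.1 0 then CfsgLib.MathieuBlock.D22.ga else CfsgLib.MathieuBlock.D22.gb) (look e.2.2.1 q))
      (look e.1 (look (bif Nat.beq e.2.1 0 then CfsgLib.MathieuBlock.D22.ga else CfsgLib.MathieuBlock.D22.gb) q))) = true := by
  decide +kernel

theorem invs_ok3 :
    (all2 (fun t u => CfsgLib.MathieuBlock.D22.itree.findLt u 4096 &&
    keyPts.all fun q => Nat.beq (look CfsgLib.MathieuBlock.D22.ga (look t q)) (look u (look CfsgLib.MathieuBlock.D22.ga q)))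
    CfsgLib.MathieuBlock.D22.invs CfsgLib.MathieuBlock.D22.moveA) = true := by
  decide +kernel

theorem invs_ok4 :
    (all2 (fun t u => CfsgLib.MathieuBlock.D22.itree.findLt u 4096 &&
    keyPts.all fun q => Nat.beq (look CfsgLib.MathieuBlock.D22.gb (look t q)) (look u (look CfsgLib.MathieuBlock.D22.gb q)))
    CfsgLib.MathieuBlock.D22.invs CfsgLib.MathieuBlock.D22.moveB) = true := by
  decide +kernel

theorem invs_ok : invsOk = true := by
  unfold invsOk
  simp only [invs_ok0, invs_ok1, invs_ok2, invs_ok3, invs_ok4, Bool.and_self]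

/-- The coset of maps following three points. -/
def covOk : Bool :=
  let h := dec CfsgLib.MathieuBlock.D22.h0
  CfsgLib.Golay.gensOk [h] CfsgLib.MathieuBlock.D22.sys.fixd && Nat.beq (h.getD 1 0) 2 && Nat.beq (h.getD 2 0) 3 &&
  Nat.beq (h.getD 23 0) 23 && Nat.beq (h.getD 0 0) 0 &&
  all2 (fun l v => vOk CfsgLib.MathieuBlock.D22.reps CfsgLib.MathieuBlock.D22.conjs (fun q => (mulTab h l).getD q 0) v)
    (tabs CfsgLib.MathieuBlock.D22.tree) CfsgLib.MathieuBlock.D22.cov

theorem cov_ok : covOk = true := by decide +kernel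

/-- The coset of maps exchanging two points. -/
def swapOk : Bool :=
  let h := dec CfsgLib.MathieuBlock.D22.h2
  CfsgLib.Golay.gensOk [h] CfsgLib.MathieuBlock.D22.sys.fixd && Nat.beq (h.getD 1 0) 2 && Nat.beq (h.getD 2 0) 1 &&
  Nat.beq (h.getD 23 0) 23 && Nat.beq (h.getD 0 0) 0 &&
  all2 (fun l w => bif Nat.blt w 24 then !(Nat.beq (iterT (fun q => (mulTab h l).getD q 0) 2 w) w)
    else Nat.blt (w - 24) CfsgLib.MathieuBlock.D22.invs.length &&
      eqTab (dec (CfsgLib.MathieuBlock.D22.invs.getD (w - 24) 0)) (mulTab h l))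
    (tabs CfsgLib.MathieuBlock.D22.tree) CfsgLib.MathieuBlock.D22.swap

theorem swap_ok : swapOk = true := by decide +kernel

theorem sys_ok : CfsgLib.MathieuBlock.D22.sys.ok = true := by decide +kernel

theorem rows_ok : (List.range 6).all (fun i => rowOk CfsgLib.MathieuBlock.D22.sys
    (enc idT :: CfsgLib.MathieuBlock.D22.invs) i) = true := by decide +kernel


end CfsgLib.MathieuBlock.D22
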