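import Cfsg.Agent.MathieuBlock.Data24
import Cfsg.Agent.MathieuTwo.Split
set_option autoImplicit false
set_option Elab.async false

/-!
The small kernel checks of the certificate for the 2-block of M24.
-/

namespace CfsgLib.MathieuBlock.D24

open CfsgLib.Golay CfsgLib.MathieuTwo CfsgLib.MathieuOut

theorem tree_ok_block0 : (block 192 0 tree.flat).all (elemOk gens tree) = true := by
  decide +kernel

theorem tree_ok_block1 : (block 192 1 tree.flat).all (elemOk gens tree) = true := by
  decide +kernel

theorem tree_ok_block2 : (block 192 2 tree.flat).all (elemOk gens tree) = true := by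
  decide +kernel

theorem tree_ok_block3 : (block 192 3 tree.flat).all (elemOk gens tree) = true := by
  decide +kernel

theorem tree_ok_block4 : (block 192 4 tree.flat).all (elemOk gens tree) = true := by
  decide +kernel

theorem tree_ok_head : headOk four gens tree 960 = true := by decide +kernel

theorem tree_ok : groupOk four gens tree 960 = true := by
  refine groupOk_of_blocks 192 5 (by norm_num) tree_ok_head fun i hi => ?_
  match i, hi with
  | 0, _ => exact tree_ok_block0
  | 1, _ => exact tree_ok_block1
  | 2, _ => exact tree_ok_block2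
  | 3, _ => exact tree_ok_block3
  | 4, _ => exact tree_ok_block4
  | i + 5, hi => omega

theorem reps_ok : repsOk [] reps = true ∧ repsOk [] conjs = true ∧ reps.length = 12 := by
  refine ⟨?_, ?_, ?_⟩ <;> decide +kernel

/-- Check of a coset: the map has the given images, and each element has a verdict. -/
def covOk (h : ℕ) (imgs : List ℕ) (cov : List V) : Bool :=
  Golay.gensOk [dec h] [] && eqTab ([23, 0, 1, 2].map fun q => (dec h).getD q 0) imgs &&
  all2 (fun l v => vOk reps conjs (fun q => (mulTab (dec h) l).getD q 0) v) (tabs tree) cov

theorem cov0_ok : covOk (hs.getD 0 0) [0, 1, 2, 3] cov0 = true := by decide +kernel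
theorem cov1_ok : covOk (hs.getD 1 0) [0, 1, 23, 3] cov1 = true := by decide +kernel
theorem cov2_ok : covOk (hs.getD 2 0) [0, 1, 23, 2] cov2 = true := by decide +kernel

/-- Check of a lower bound for a centraliser. -/
def centOk (t : List ℕ) (E : List ℕ) (lv : List (ℕ × List (ℕ × ℕ))) (n : ℕ) : Bool :=
  E.all (fun e => Golay.gensOk [dec e] [] && eqTab (mulTab (dec e) t) (mulTab t (dec e))) &&
  levelsOk (E.map dec) lv [] && Nat.beq (lv.map fun l => l.2.length).prod n

theorem cent8_ok : centOk Invol.rep8 cent8Elts cent8Levels 21504 = true := by decide +kernel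
theorem cent0_ok : centOk Invol.rep0 cent0Elts cent0Levels 7680 = true := by decide +kernel

/-- Check of the squares of the main rows and of their inverses. -/
def mainsOk : Bool :=
  mains.all (fun e => Nat.blt e.1 12 && validTab (dec e.2.2.1) &&
    (List.range 24).all (fun q => Nat.beq (look (reps.getD e.1 0) (look e.2.2.1 q)) q) &&
    vOk reps conjs (fun q => look (reps.getD e.1 0) (look (reps.getD e.1 0) q)) e.2.2.2.1 &&
    vOk reps conjs (fun q => look e.2.2.1 (look e.2.2.1 q)) e.2.2.2.2) &&
  (List.range 12).all (fun r => mains.any fun e =>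
    e.2.2.2.1.code == some r || e.2.2.2.2.code == some r)

theorem mains_ok : mainsOk = true := by decide +kernel

theorem head_ok : (mains.map fun e => (e.1, e.2.1)) =
    [(10, 1), (0, 0), (1, 1), (3, 2), (5, 3), (7, 1), (8, 2), (11, 2)] ∧ z = 10 ∧
    ((mains.map fun e => e.2.2.2.1.code).headD none) = some 10 := by decide +kernel

end CfsgLib.MathieuBlock.D24
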