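import Cfsg.Agent.MathieuBlock.Cover
import Cfsg.Agent.Golay.Invol
set_option autoImplicit false

/-!
The involutions of the group of the code, split into the orbits of a cyclic group.
-/

namespace CfsgLib.MathieuBlock

open Cfsg CfsgLib.Golay CfsgLib.MathieuTwo CfsgLib.MathieuOut

/-- Lexicographic comparison of two maps on listed points. -/
def lexLt (f g : ℕ → ℕ) : List ℕ → Bool
  | [] => false
  | q :: l => bif Nat.blt (f q) (g q) then true else bif Nat.beq (f q) (g q) then lexLt f g l else false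

theorem lexLt_spec (f g : ℕ → ℕ) : ∀ l : List ℕ, lexLt f g l = true → l.map f < l.map g
  | [], h => by simp [lexLt] at h
  | q :: l, h => by
    rw [lexLt] at h
    rw [List.map_cons, List.map_cons, List.cons_lt_cons_iff]
    cases h1 : Nat.blt (f q) (g q) with
    | true => exact Or.inl (of_blt h1)
    | false =>
      rw [h1, cond_false] at h
      cases h2 : Nat.beq (f q) (g q) with
      | true =>
        rw [h2, cond_true] at h
        exact Or.inr ⟨Nat.eq_of_beq_eq_true h2, lexLt_spec f g l h⟩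
      | false => rw [h2, cond_false] at h; simp at h

/-- Images of the key points. -/
def keyVals (y : Equiv.Perm GolayPt) : List ℕ := keyPts.map (im y)

theorem eq_of_keyVals {y z : Equiv.Perm GolayPt} (hy : y ∈ M24) (hz : z ∈ M24)
    (h : keyVals y = keyVals z) : y = z := by
  have h1 : z⁻¹ * y = 1 := by
    refine keyPts_eq_one (fixd := []) (mem_fixGroup.2 ⟨mul_mem (inv_mem hz) hy, by simp⟩) fun q hq => ?_
    have hq24 : q < 24 := by revert q; decide
    have e : im y q = im z q := List.map_eq_map_iff.1 h q hq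
    rw [im_mul, e, ← im_mul, inv_mul_cancel, im, Equiv.Perm.one_apply, idx_ptN hq24]
  exact (inv_mul_eq_one.1 h1).symm

/-- An orbit representative: code, factors, and length of the orbit. -/
abbrev Rep : Type := ℕ × List ℕ × ℕ

/-- Image under the conjugate by the `i`th power. -/
def conjPow (P : List ℕ) (m t i q : ℕ) : ℕ := look (P.getD i 0) (look t (look (P.getD (m - i) 0) q))

/-- Check of one representative. -/
def repOk (E P : List ℕ) (m : ℕ) (e : Rep) : Bool :=
  e.2.1.all (fun i => Nat.blt i E.length) &&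
  (List.range 24).all (fun q => Nat.beq (look e.1 q) (lookL E e.2.1 q)) &&
  keyPts.all (fun q => Nat.beq (look e.1 (look e.1 q)) q) &&
  Nat.beq (e.2.2 % 2) 1 && Nat.ble e.2.2 m &&
  keyPts.all (fun q => Nat.beq (conjPow P m e.1 e.2.2 q) (look e.1 q)) &&
  (List.range (e.2.2 - 1)).all (fun i => lexLt (look e.1) (conjPow P m e.1 (i + 1)) keyPts)

/-- Check that the representatives increase. -/
def chainOk : List Rep → Bool
  | a :: b :: r => lexLt (look a.1) (look b.1) keyPts && chainOk (b :: r)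
  | _ => true

/-- Check of a partition of the involutions into orbits of odd length. -/
def orbitsOk (E P : List ℕ) (m n : ℕ) (L : List Rep) : Bool :=
  repsOk [] E && Nat.beq P.length (m + 1) && Nat.beq (m % 2) 1 &&
  P.all (fun p => validTab (dec p)) && Golay.gensOk [dec (P.getD 1 0)] [] &&
  eqTab (dec (P.getD 0 0)) idT && eqTab (dec (P.getD m 0)) idT &&
  (List.range m).all (fun i => (List.range 24).all fun q =>
    Nat.beq (look (P.getD (i + 1) 0) q) (look (P.getD 1 0) (look (P.getD i 0) q))) &&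
  L.all (repOk E P m) && chainOk L && Nat.beq (L.map fun e => e.2.2).sum n

/-- The element of a representative. -/
noncomputable def repElt (E : List ℕ) (e : Rep) : Equiv.Perm GolayPt := prodL E e.2.1

variable {E P : List ℕ} {m n : ℕ} {L : List Rep}

theorem chainOk_pairwise : ∀ {L : List Rep}, chainOk L = true →
    L.Pairwise fun a b => keyPts.map (look a.1) < keyPts.map (look b.1)
  | [], _ => List.Pairwise.nil
  | [_], _ => List.pairwise_singleton _ _
  | a :: b :: r, h => by
    rw [chainOk, Bool.and_eq_true] at h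
    have ih := chainOk_pairwise h.2
    refine List.pairwise_cons.2 ⟨fun x hx => ?_, ih⟩
    have hab := lexLt_spec _ _ _ h.1
    rcases List.mem_cons.1 hx with rfl | hx
    · exact hab
    · exact lt_trans hab (List.rel_of_pairwise_cons ih hx)

theorem orbits_facts (h : orbitsOk E P m n L = true) :
    ∃ c : Equiv.Perm GolayPt, c = permOf (dec (P.getD 1 0)) ∧ c ∈ M24 ∧ c ^ m = 1 ∧
      ∀ e ∈ L, repElt E e ∈ M24 ∧ repElt E e * repElt E e = 1 ∧ Odd e.2.2 ∧
        (∀ q < 24, look e.1 q = im (repElt E e) q) ∧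
        c ^ e.2.2 * repElt E e * (c ^ e.2.2)⁻¹ = repElt E e ∧
        (∀ i, 0 < i → i < e.2.2 → keyVals (repElt E e) < keyVals (c ^ i * repElt E e * (c ^ i)⁻¹)) := by
  simp only [orbitsOk, Bool.and_eq_true, List.all_eq_true, Nat.beq_eq, eqTab_iff, List.mem_range] at h
  obtain ⟨⟨⟨⟨⟨⟨⟨⟨⟨⟨hE, hlen⟩, hodd⟩, hP⟩, hc⟩, h0⟩, hm⟩, hpw⟩, hL⟩, -⟩, -⟩ := h
  obtain ⟨hcv, hcm⟩ := permOf_mem_fixGroup (fixd := []) (by simp) hc (List.mem_singleton_self _)
  set c := permOf (dec (P.getD 1 0)) with hcdef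
  have hval : ∀ i ≤ m, validTab (dec (P.getD i 0)) = true := fun i hi => by
    rw [List.getD_eq_getElem _ _ (by omega)]; exact hP _ (List.getElem_mem _)
  have hpow : ∀ i ≤ m, permOf (dec (P.getD i 0)) = c ^ i := by
    intro i
    induction i with
    | zero => intro _; rw [h0, permOf_idT, pow_zero]
    | succ i ih =>
      intro hi
      refine ext_im fun q hq => ?_
      have e := hpw i (by omega) q hq
      rw [(look_spec (hval (i + 1) hi) hq).1, (look_spec (hval i (by omega)) hq).1,
        (look_spec hcv (im_lt _ _)).1, ih (by omega), ← im_mul, ← pow_succ'] at e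
      exact e
  have hcm1 : c ^ m = 1 := by rw [← hpow m le_rfl, hm, permOf_idT]
  refine ⟨c, rfl, (mem_fixGroup.1 hcm).1, hcm1, fun e he => ?_⟩
  have he' := hL e he
  simp only [repOk, Bool.and_eq_true, List.all_eq_true, Nat.beq_eq, Nat.blt_eq, Nat.ble_eq,
    List.mem_range] at he'
  obtain ⟨⟨⟨⟨⟨⟨hidx, hlk⟩, hinv⟩, hs⟩, hsm⟩, hfix⟩, hmin⟩ := he'
  obtain ⟨htm, htl⟩ := prodL_spec hE hidx
  have ht : ∀ q < 24, look e.1 q = im (repElt E e) q := fun q hq => (hlk q hq).trans (htl q hq)
  have htM : repElt E e ∈ M24 := (mem_fixGroup.1 htm).1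
  have hconj : ∀ i ≤ m, ∀ q < 24,
      conjPow P m e.1 i q = im (c ^ i * repElt E e * (c ^ i)⁻¹) q := by
    intro i hi q hq
    have e2 : (c ^ i)⁻¹ = c ^ (m - i) := inv_eq_of_mul_eq_one_right (by
      rw [← pow_add, Nat.add_sub_cancel' hi, hcm1])
    rw [conjPow, (look_spec (hval (m - i) (by omega)) hq).1, ht _ (im_lt _ _),
      (look_spec (hval i hi) (im_lt _ _)).1, hpow i hi, hpow (m - i) (by omega), e2, im_mul, im_mul]
  have hkey24 : ∀ q ∈ keyPts, q < 24 := by decide
  refine ⟨htM, ?_, Nat.odd_iff.2 hs, ht, ?_, fun i hi hi' => ?_⟩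
  · refine eq_of_keyVals (mul_mem htM htM) (one_mem _) (List.map_eq_map_iff.2 fun q hq => ?_)
    have e2 := hinv q hq
    rw [ht q (hkey24 q hq), ht _ (im_lt _ _), ← im_mul] at e2
    rw [e2, im, Equiv.Perm.one_apply, idx_ptN (hkey24 q hq)]
  · have hcp : c ^ e.2.2 ∈ M24 := pow_mem (mem_fixGroup.1 hcm).1 _
    refine eq_of_keyVals (mul_mem (mul_mem hcp htM) (inv_mem hcp)) htM
      (List.map_eq_map_iff.2 fun q hq => ?_)
    have e2 := hfix q hq
    rwa [hconj _ hsm q (hkey24 q hq), ht q (hkey24 q hq)] at e2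
  · have e2 := lexLt_spec _ _ _ (hmin (i - 1) (by omega))
    rw [show i - 1 + 1 = i by omega] at e2
    rw [List.map_congr_left (fun q hq => ht q (hkey24 q hq)),
      List.map_congr_left (fun q hq => hconj i (by omega) q (hkey24 q hq))] at e2
    exact e2

theorem orbits_sum (h : orbitsOk E P m n L = true) {k : Type} [CommRing k] [CharP k 2]
    {T : Finset (Equiv.Perm GolayPt)} (hT : ∀ y, y ∈ T ↔ y ∈ M24 ∧ y * y = 1) (hn : T.card ≤ n)
    (F : Equiv.Perm GolayPt → k)
    (hF : ∀ i : ℕ, ∀ y ∈ M24, F (permOf (dec (P.getD 1 0)) ^ i * y * (permOf (dec (P.getD 1 0)) ^ i)⁻¹) = F y) :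
    ∑ y ∈ T, F y = (L.map fun e => F (repElt E e)).sum := by
  classical
  obtain ⟨c, hc, hcM, -, hrep⟩ := orbits_facts h
  rw [← hc] at hF
  simp only [orbitsOk, Bool.and_eq_true, Nat.beq_eq] at h
  have hpair := chainOk_pairwise h.1.2
  have hsum : (L.map fun e => e.2.2).sum = n := h.2
  set D : Finset (Fin L.length × ℕ) :=
    (Finset.univ : Finset (Fin L.length)).biUnion fun j => (Finset.range L[j].2.2).image fun i => (j, i) with hD
  have hDmem : ∀ x, x ∈ D ↔ x.2 < L[x.1].2.2 := by
    intro x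
    simp only [hD, Finset.mem_biUnion, Finset.mem_univ, true_and, Finset.mem_image, Finset.mem_range]
    exact ⟨fun ⟨j, i, hi, e⟩ => e ▸ hi, fun hx => ⟨x.1, x.2, hx, rfl⟩⟩
  have hdisj : ((Finset.univ : Finset (Fin L.length)) : Set (Fin L.length)).PairwiseDisjoint
      fun j => (Finset.range L[j].2.2).image fun i => (j, i) := by
    intro a _ b _ hab
    simp only [Function.onFun, Finset.disjoint_left, Finset.mem_image]
    rintro x ⟨i, -, rfl⟩ ⟨i', -, e⟩
    exact hab (congrArg Prod.fst e).symm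
  have hDcard : D.card = n := by
    rw [hD, Finset.card_biUnion hdisj, ← hsum]
    rw [Finset.sum_congr rfl fun j _ => (Finset.card_image_of_injective _ (Prod.mk_right_injective j)).trans (Finset.card_range _)]
    rw [← Fin.sum_univ_fun_getElem L fun e => e.2.2]
    rfl
  set φ : Fin L.length × ℕ → Equiv.Perm GolayPt :=
    fun x => c ^ x.2 * repElt E L[x.1] * (c ^ x.2)⁻¹ with hφ
  have key : ∀ (j : Fin L.length) (d : ℕ), keyVals (repElt E L[j]) ≤
      keyVals (c ^ d * repElt E L[j] * (c ^ d)⁻¹) ∧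
      (keyVals (repElt E L[j]) = keyVals (c ^ d * repElt E L[j] * (c ^ d)⁻¹) → L[j].2.2 ∣ d) := by
    intro j d
    obtain ⟨-, -, hs, -, hfix, hmin⟩ := hrep L[j] (List.getElem_mem _)
    set t := repElt E L[j]
    set s := L[j].2.2
    have hmul : ∀ a, c ^ (s * a) * t * (c ^ (s * a))⁻¹ = t := by
      intro a
      induction a with
      | zero => simp
      | succ a ih =>
        rw [Nat.mul_succ, pow_add]
        calc c ^ (s * a) * c ^ s * t * (c ^ (s * a) * c ^ s)⁻¹
            = c ^ (s * a) * (c ^ s * t * (c ^ s)⁻¹) * (c ^ (s * a))⁻¹ := by group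
          _ = t := by rw [hfix, ih]
    have e : c ^ d * t * (c ^ d)⁻¹ = c ^ (d % s) * t * (c ^ (d % s))⁻¹ := by
      calc c ^ d * t * (c ^ d)⁻¹
          = c ^ (d % s) * (c ^ (s * (d / s)) * t * (c ^ (s * (d / s)))⁻¹) * (c ^ (d % s))⁻¹ := by
            conv_lhs => rw [← Nat.mod_add_div d s, pow_add]
            group
        _ = _ := by rw [hmul]
    rw [e]
    rcases Nat.eq_zero_or_pos (d % s) with h0 | h0
    · rw [h0]
      exact ⟨le_of_eq (by simp), fun _ => Nat.dvd_of_mod_eq_zero h0⟩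
    · have := hmin (d % s) h0 (Nat.mod_lt _ hs.pos)
      exact ⟨le_of_lt this, fun e' => absurd e' (ne_of_lt this)⟩
  have hlt : ∀ a b : Fin L.length, a.val < b.val → keyVals (repElt E L[a]) < keyVals (repElt E L[b]) := by
    intro a b hab
    have e := List.pairwise_iff_getElem.1 hpair a b a.isLt b.isLt hab
    have hkey24 : ∀ q ∈ keyPts, q < 24 := by decide
    rwa [List.map_congr_left (fun q hq => (hrep _ (List.getElem_mem a.isLt)).2.2.2.1 q (hkey24 q hq)),
      List.map_congr_left (fun q hq => (hrep _ (List.getElem_mem b.isLt)).2.2.2.1 q (hkey24 q hq))] at e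
  have hinj : ∀ x ∈ D, ∀ y ∈ D, φ x = φ y → x = y := by
    suffices aux : ∀ x ∈ D, ∀ y ∈ D, x.2 ≤ y.2 → φ x = φ y → x = y by
      intro x hx y hy e
      rcases le_total x.2 y.2 with hl | hl
      · exact aux x hx y hy hl e
      · exact (aux y hy x hx hl e.symm).symm
    rintro ⟨a, i⟩ hx ⟨b, i'⟩ hy hii e
    rw [hDmem] at hx hy
    replace hx : i < L[a].2.2 := hx
    replace hy : i' < L[b].2.2 := hy
    simp only [hφ] at e hii
    have e1 : repElt E L[a] = c ^ (i' - i) * repElt E L[b] * (c ^ (i' - i))⁻¹ := by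
      rw [show i' = i + (i' - i) by omega, pow_add] at e
      have e2 := congrArg (fun z => (c ^ i)⁻¹ * z * c ^ i) e
      simpa [mul_assoc] using e2
    obtain ⟨m', hm'⟩ : ∃ m', c ^ m' = (c ^ (i' - i))⁻¹ := by
      refine ⟨(i' - i) * (orderOf c - 1), eq_inv_of_mul_eq_one_left ?_⟩
      have ho : 0 < orderOf c := orderOf_pos c
      rw [← pow_add, show (i' - i) * (orderOf c - 1) + (i' - i) = orderOf c * (i' - i) by
        conv_lhs => rw [← Nat.mul_succ, show Nat.succ (orderOf c - 1) = orderOf c by omega]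
        rw [mul_comm], pow_mul, pow_orderOf_eq_one, one_pow]
    have h1 := key b (i' - i)
    rw [← e1] at h1
    have h2 := (key a m').1
    rw [hm', inv_inv, e1,
      show (c ^ (i' - i))⁻¹ * (c ^ (i' - i) * repElt E L[b] * (c ^ (i' - i))⁻¹) * c ^ (i' - i) = repElt E L[b]
        by group, ← e1] at h2
    have heq : keyVals (repElt E L[b]) = keyVals (repElt E L[a]) := le_antisymm h1.1 h2
    have hab : a = b := by
      rcases lt_trichotomy a.val b.val with hh | hh | hh
      · exact absurd heq.symm (ne_of_lt (hlt a b hh))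
      · exact Fin.ext hh
      · exact absurd heq (ne_of_lt (hlt b a hh))
    subst hab
    have hd := h1.2 rfl
    rcases Nat.eq_zero_or_pos (i' - i) with h0 | h0
    · exact Prod.ext rfl (by simp only; omega)
    · have := Nat.le_of_dvd h0 hd
      omega
  have himg : D.image φ = T := by
    refine Finset.eq_of_subset_of_card_le (fun y hy => ?_) ?_
    · obtain ⟨x, -, rfl⟩ := Finset.mem_image.1 hy
      obtain ⟨hm', h2', -⟩ := hrep L[x.1] (List.getElem_mem _)
      refine (hT _).2 ⟨mul_mem (mul_mem (pow_mem hcM _) hm') (inv_mem (pow_mem hcM _)), ?_⟩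
      show c ^ x.2 * repElt E L[x.1] * (c ^ x.2)⁻¹ * (c ^ x.2 * repElt E L[x.1] * (c ^ x.2)⁻¹) = 1
      calc _ = c ^ x.2 * (repElt E L[x.1] * repElt E L[x.1]) * (c ^ x.2)⁻¹ := by group
        _ = 1 := by rw [h2']; group
    · rw [Finset.card_image_of_injOn (fun a ha b hb e => hinj a ha b hb e), hDcard]; exact hn
  rw [← himg, Finset.sum_image hinj, hD, Finset.sum_biUnion hdisj,
    ← Fin.sum_univ_fun_getElem L fun e => F (repElt E e)]
  refine Finset.sum_congr rfl fun j _ => ?_
  obtain ⟨hm', -, hs, -⟩ := hrep L[j] (List.getElem_mem _)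
  rw [Finset.sum_image (fun a _ b _ e => congrArg Prod.snd e)]
  simp only [hφ, hF _ _ hm', Finset.sum_const, Finset.card_range, nsmul_eq_mul]
  obtain ⟨r, hr⟩ := hs
  show ((L[j].2.2 : ℕ) : k) * F (repElt E L[j]) = _
  rw [hr, Nat.cast_add, Nat.cast_one, Nat.cast_mul, Nat.cast_ofNat, CharTwo.two_eq_zero, zero_mul,
    zero_add, one_mul]
  rfl

/-- The number of conjugates is bounded by the index of any set commuting with the element. -/
theorem card_conjugates_le {K : Subgroup (Equiv.Perm GolayPt)} {t : Equiv.Perm GolayPt}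
    {C : Subgroup (Equiv.Perm GolayPt)} (hC : C ≤ K) (hcomm : ∀ x ∈ C, x * t = t * x) :
    {y | ∃ k ∈ K, k * t * k⁻¹ = y}.ncard * Nat.card C ≤ Nat.card K := by
  classical
  haveI := Fintype.ofFinite K
  haveI := Fintype.ofFinite C
  set f : K → Equiv.Perm GolayPt := fun k => (k : Equiv.Perm GolayPt) * t * (k : Equiv.Perm GolayPt)⁻¹ with hf
  have hset : {y | ∃ k ∈ K, k * t * k⁻¹ = y} = ↑((Finset.univ : Finset K).image f) := by
    ext y
    simp only [Set.mem_setOf_eq, Finset.coe_image, Finset.coe_univ, Set.image_univ, Set.mem_range, hf]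
    exact ⟨fun ⟨k, hk, e⟩ => ⟨⟨k, hk⟩, e⟩, fun ⟨k, e⟩ => ⟨k, k.2, e⟩⟩
  rw [hset, Set.ncard_coe_finset, Nat.card_eq_fintype_card (α := K), ← Finset.card_univ (α := K)]
  conv_rhs => rw [Finset.card_eq_sum_card_image f]
  refine le_trans (le_of_eq (nsmul_eq_mul ((Finset.univ : Finset K).image f).card (Nat.card C)).symm)
    (Finset.card_nsmul_le_sum (N := ℕ) _ _ _ fun y hy => ?_)
  obtain ⟨k, -, rfl⟩ := Finset.mem_image.1 hy
  rw [Nat.card_eq_fintype_card, ← Finset.card_univ]
  refine Finset.card_le_card_of_injOn (fun x => k * ⟨x, hC x.2⟩) (fun x _ => ?_) (fun x _ y _ e => ?_)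
  · simp only [Finset.coe_filter, Finset.mem_univ, true_and, Set.mem_setOf_eq, hf, Subgroup.coe_mul]
    calc (k : Equiv.Perm GolayPt) * x * t * ((k : Equiv.Perm GolayPt) * x)⁻¹
        = k * ((x : Equiv.Perm GolayPt) * t) * (x : Equiv.Perm GolayPt)⁻¹ * (k : Equiv.Perm GolayPt)⁻¹ := by group
      _ = _ := by rw [hcomm x x.2]; group
  · simp only [mul_right_inj, Subtype.mk.injEq, SetLike.coe_eq_coe] at e
    exact e

end CfsgLib.MathieuBlock
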