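import Cfsg.Agent.MathieuBlock.Orbits
import Cfsg.Agent.MathieuTwo.Split
set_option autoImplicit false

/-!
The orbit check, block by block.
-/

namespace CfsgLib.MathieuBlock

open CfsgLib.Golay CfsgLib.MathieuTwo CfsgLib.MathieuOut

/-- The part of the orbit check concerning the powers and the whole list. -/
def orbitsHead (E P : List ℕ) (m n : ℕ) (L : List Rep) : Bool :=
  repsOk [] E && Nat.beq P.length (m + 1) && Nat.beq (m % 2) 1 &&
  P.all (fun p => validTab (dec p)) && Golay.gensOk [dec (P.getD 1 0)] [] &&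
  eqTab (dec (P.getD 0 0)) idT && eqTab (dec (P.getD m 0)) idT &&
  (List.range m).all (fun i => (List.range 24).all fun q =>
    Nat.beq (look (P.getD (i + 1) 0) q) (look (P.getD 1 0) (look (P.getD i 0) q))) &&
  chainOk L && Nat.beq (L.map fun e => e.2.2).sum n

theorem orbitsOk_of_blocks {E P : List ℕ} {m n : ℕ} {L : List Rep} (w k : ℕ)
    (hl : L.length ≤ w * k) (hh : orbitsHead E P m n L = true)
    (h : ∀ i < k, (block w i L).all (repOk E P m) = true) :
    orbitsOk E P m n L = true := by
  have hall := all_of_blocks w k _ hl h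
  simp only [orbitsHead, orbitsOk, Bool.and_eq_true] at hh ⊢
  obtain ⟨⟨h1, h2⟩, h3⟩ := hh
  exact ⟨⟨⟨h1, hall⟩, h2⟩, h3⟩

end CfsgLib.MathieuBlock
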